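import Cfsg.Agent.Lib.Trans.Six
import Cfsg.Agent.Lib.Ind.PermLemma

/-!
# The exceptional case of dimension four over the field of three elements
-/

set_option autoImplicit false
set_option linter.unusedSectionVars false
set_option linter.style.haveILetI false

namespace Cfsg.Agent.Trans

open Cfsg.Agent.Block Cfsg.Agent.Char Cfsg.Agent.Tr Subgroup Module

variable {G : Type*} [Group G] [Finite G]

theorem FC.irr_of_comp {p n : ℕ} {χ : G → ℂ} (h : FC p χ n) {H : Type*} [Group H] [Finite H]
    (f : H →* G) (hi : IsIrrCharacter H fun x => χ (f x)) : IsIrrCharacter G χ := by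
  obtain ⟨ψ, h1, h2⟩ := exists_deg_le h.char f (φ := ⟨_, hi⟩) ((mu_self ⟨_, hi⟩).trans_ne one_ne_zero)
  have h3 : ((deg ⟨_, hi⟩ : ℕ) : ℂ) = n := by
    rw [← deg_spec, ← h.one, ← map_one f]
  rw [Nat.cast_inj.1 h3] at h2
  rw [eq_irr_of_deg h.char h1 (by rw [h.one, le_antisymm h2 (deg_le_of_mu h.char h.one h1)])]
  exact ψ.2

theorem FC.mem_center_of_irr {p n : ℕ} [Fact p.Prime] {χ : G → ℂ} (h : FC p χ n) {K : Subgroup G}
    (hi : IsIrrCharacter K fun y => χ y) {g : G} (hg : K ≤ centralizer {g}) : g ∈ center G :=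
  h.mem_center_of_norm (norm_of_central ⟨_, (h.res (centralizer {g})).irr_of_comp (inclusion hg) hi⟩
    (z := ⟨g, mem_centralizer_singleton_iff.2 rfl⟩)
    fun a => Subtype.ext (mem_centralizer_singleton_iff.1 a.2))

theorem card_le_of_pCore [Group.IsSolvable G] {r : ℕ} [hr : Fact r.Prime]
    (h : ∀ s : ℕ, s.Prime → s ≠ r → pCore s G = ⊥) (h2 : ¬ r ^ 2 ∣ Nat.card G) :
    Nat.card G ≤ r * (r - 1) := by
  have h1 : fittingSubgroup G ≤ pCore r G := by
    rw [Fit.fitting_eq_iSup_pCore]
    refine iSup_le fun s => ?_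
    by_cases e : (s : ℕ) = r
    · rw [e]
    · rw [h s s.2 e]; exact bot_le
  have h3 := card_le_of_le (((centralizer_le h1).trans Fit.centralizer_fitting_le).trans h1)
  have h4 := card_eq_cent_mul (pCore r G)
  have := hr.out.two_le
  obtain ⟨k, hk⟩ := IsPGroup.iff_card.1 (Fit.isPGroup_pCore r G)
  rcases k with _ | _ | k
  · rw [pow_zero, card_eq_one] at hk
    rw [hk, coe_bot, centralizer_eq_top_iff_subset.2 (by simp), card_top, card_bot] at h3
    exact h3.trans (Nat.mul_pos (by omega) (by omega))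
  · rw [zero_add, pow_one] at hk
    exact h4.trans_le (Nat.mul_le_mul (h3.trans hk.le) (Nat.le_of_dvd (by omega) (ee_dvd_pred hk)))
  · exact absurd (((pow_dvd_pow r (by omega)).trans hk.symm.dvd).trans
      (card_subgroup_dvd_card _)) h2

theorem not_five_dvd {A : Subgroup G} (h : A ≤ pCore 2 G) : ¬ 5 ∣ Nat.card A := fun e =>
  not_dvd_pCore (by norm_num) Nat.prime_two (by norm_num) (e.trans (card_dvd_of_le h))

namespace FC
variable {p : ℕ} [hp : Fact p.Prime] {χ : G → ℂ} (h : FC p χ 4) (hd : Nat.card G ∣ 2 ^ 9 * 5)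
  (h5 : ∀ x : G, orderOf x = 5 → x ∉ centralizer (pCore 2 G : Set G)) {x : G} (hx : orderOf x = 5)
include h hd h5 hx

theorem le_center_four (A : Subgroup G) [A.Normal] (hA : A ≤ pCore 2 G)
    (hc : ∀ a ∈ A, ∀ b ∈ A, a * b = b * a) : A ≤ center G := by
  haveI : Fact (Nat.Prime 5) := ⟨by norm_num⟩
  have h1 : x ∈ centralizer (A : Set G) := by
    refine (h.lemmaS' (by norm_num) hx (not_five_dvd hA)
      (le_normalizer_of_normal (mem_top x))).resolve_right fun ⟨e, _⟩ => ?_
    have := (Ind.ito e (A.subgroupOf _) (fun a ha b hb => Subtype.ext (hc a ha b hb))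
      h.one).trans ((relIndex_sup_left _ _).dvd.trans (relIndex_dvd_card A (zpowers x)))
    rw [Nat.card_zpowers, hx] at this
    omega
  rcases h.lemmaS' (Q := pCore 2 G ⊓ centralizer (A : Set G)) (by norm_num) hx
    (not_five_dvd inf_le_left) (le_normalizer_of_normal (mem_top x)) with e | ⟨e, -⟩
  · refine absurd (fun q hq => ?_) (h5 x hx)
    have h2 : q * x * q⁻¹ * x⁻¹ ∈ pCore 2 G := by
      rw [mul_assoc, mul_assoc, ← mul_assoc x]
      exact mul_mem hq (Normal.conj_mem inferInstance _ (inv_mem hq) x)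
    have h3 : Commute (q * x * q⁻¹ * x⁻¹) x := e _ ⟨h2, (centralizer (A : Set G)).mul_mem
      (Normal.conj_mem inferInstance _ h1 q) (inv_mem h1)⟩
    have h4 := h3.mul_pow 5
    rw [inv_mul_cancel_right, conj_pow, ← hx, pow_orderOf_eq_one, mul_one, mul_one, mul_inv_cancel,
      hx] at h4
    have := eq_one_of_pow_of_not_dvd (p := 5) (k := 1) h4.symm fun e =>
      not_five_dvd le_rfl (e.trans (orderOf_dvd_natCard _ h2))
    rwa [mul_inv_eq_one, mul_inv_eq_iff_eq_mul] at this
  · exact fun a ha => h.mem_center_of_irr e (sup_le (fun b hb => mem_centralizer_singleton_iff.2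
      (hb.2 a ha).symm) (zpowers_le.2 (mem_centralizer_singleton_iff.2 (h1 a ha).symm)))

theorem irr_four : IsIrrCharacter G χ :=
  haveI : Fact (Nat.Prime 5) := ⟨by norm_num⟩
  h.irr_of_comp (Subgroup.subtype _) ((h.lemmaS' (by norm_num) hx (not_five_dvd le_rfl)
    (le_normalizer_of_normal (mem_top x))).resolve_left (h5 x hx)).1

theorem vanish_four {g : G} (hg : g ∈ pCore 2 G) (hz : g ∉ center G) : χ g = 0 := by
  let π := QuotientGroup.mk' (center G)
  haveI : ((pCore 2 G).map π).Normal := Normal.map inferInstance π (QuotientGroup.mk'_surjective _)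
  let A := pCore 2 G ⊓ (centralizer ((pCore 2 G).map π : Set (G ⧸ center G))).comap π
  let C := pCore 2 G ⊓ centralizer (A : Set G)
  have h1 := h.le_center_four hd h5 hx (C ⊓ A) (inf_le_left.trans inf_le_left)
    fun a ha b hb => (ha.1.2 b hb.2).symm
  have h2 : g ∉ centralizer (A : Set G) := fun e => by
    haveI : (C.map π).Normal := Normal.map inferInstance π (QuotientGroup.mk'_surjective _)
    obtain ⟨⟨_, ⟨c, hc, rfl⟩, e1⟩, e2⟩ := ne_bot_iff_exists_ne_one.1 (Fit.inf_centralizer_ne_bot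
      ((Fit.isPGroup_pCore 2 G).map π).isNilpotent (map_mono (inf_le_left : C ≤ _))
      le_normalizer_of_normal fun e1 => hz ((QuotientGroup.eq_one_iff g).1
        (e1.le (mem_map_of_mem π (show g ∈ C from ⟨hg, e⟩)))))
    exact e2 (Subtype.ext ((QuotientGroup.eq_one_iff c).2 (h1 ⟨hc, hc.1, e1⟩)))
  obtain ⟨a, ha, h3⟩ : ∃ a ∈ A, a * g ≠ g * a := by simpa [mem_centralizer_iff] using h2
  have h4 : a * g * a⁻¹ * g⁻¹ ∈ center G := by
    refine (QuotientGroup.eq_one_iff _).1 ?_
    change π _ = 1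
    rw [map_mul, map_mul, map_mul, ← ha.2 _ (mem_map_of_mem π hg)]
    simp
  have h6 := apply_mul_of_central ⟨χ, h.irr_four hd h5 hx⟩ (mem_center_iff.1 h4) g
  rw [inv_mul_cancel_right] at h6
  by_contra h7
  have h8 : χ g = χ (a * g * a⁻¹ * g⁻¹) / χ 1 * χ g := (isClass_of_isChar h.char _ _).symm.trans h6
  have := h.faith _ (eq_of_div_eq_one (mul_eq_right₀ h7 |>.1 h8.symm))
  exact h3 (by rwa [mul_inv_eq_one, mul_inv_eq_iff_eq_mul] at this)

theorem card_core_four : Nat.card (pCore 2 G) ≤ 16 * Nat.card (center G) := by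
  classical
  haveI := Fintype.ofFinite (pCore 2 G)
  have h' := h.res (pCore 2 G)
  have h1 := sum_norm_sq h'.char
  obtain ⟨l, hl⟩ := supp_nonempty h'.char (by rw [h'.one]; norm_num)
  have h2 := (Nat.mul_pos (Nat.pos_of_ne_zero (mem_supp.1 hl))
    (Nat.pos_of_ne_zero (mem_supp.1 hl))).trans_le (Finset.single_le_sum
      (f := fun ψ => mu (fun y : pCore 2 G => χ y) ψ * mu (fun y : pCore 2 G => χ y) ψ)
      (fun _ _ => Nat.zero_le _) (Finset.mem_univ l))
  have h3 : ∑ g : pCore 2 G, ‖χ g‖ ^ 2 ≤ 16 * Nat.card (center G) := by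
    rw [← Finset.sum_filter_of_ne (p := fun g : pCore 2 G => (g : G) ∈ center G) fun g _ e => by
      by_contra hz
      simp [h.vanish_four hd h5 hx g.2 hz] at e]
    refine (Finset.sum_le_card_nsmul _ _ 16 fun g _ => ?_).trans ?_
    · have := norm_le_of_isChar h.char g
      rw [h.one] at this
      exact (pow_le_pow_left₀ (norm_nonneg _) this 2).trans (by norm_num)
    · rw [nsmul_eq_mul, mul_comm, ← Fintype.card_subtype, ← Nat.card_eq_fintype_card]
      exact mul_le_mul_of_nonneg_left (Nat.cast_le.2 (Nat.card_le_card_of_injective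
        (fun g => (⟨g.1, g.2⟩ : center G))
        fun a b e => Subtype.ext (Subtype.ext (congrArg (fun z : center G => (z : G)) e))))
        (by norm_num)
  rw [h1, ← Nat.cast_mul] at h3
  exact (Nat.le_mul_of_pos_right _ h2).trans (by exact_mod_cast h3)

theorem card_le_four : Nat.card G ≤ 20 * Nat.card (pCore 2 G) := by
  haveI : Fact (Nat.Prime 5) := ⟨by norm_num⟩
  haveI := burnside (a := 9) (b := 1) Nat.prime_two Nat.prime_five hd
  have h1 := (card_quotient_dvd_card (pCore 2 G)).trans hd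
  rw [card_eq_card_quotient_mul_card_subgroup (pCore 2 G)]
  refine Nat.mul_le_mul_right _ (card_le_of_pCore (r := 5) (fun s hs e => ?_) fun e =>
    absurd (e.trans h1) (by norm_num))
  by_cases e2 : s = 2
  · rw [e2, Fit.pCore_quotient_pCore]
  · exact Fit.pCore_eq_bot_of_coprime (Nat.Coprime.coprime_dvd_left h1 (Nat.Coprime.mul_left
      (Nat.Coprime.pow_left _ ((Nat.coprime_primes Nat.prime_two hs).2 (Ne.symm e2)))
      ((Nat.coprime_primes Fact.out hs).2 (Ne.symm e))))

theorem class_four (g : G) (hg : g ∉ center G) :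
    10 * Nat.card (centralizer ({g} : Set G)) ≤ Nat.card G := by
  classical
  haveI : Fact (Nat.Prime 5) := ⟨by norm_num⟩
  rw [← (centralizer ({g} : Set G)).index_mul_card]
  refine Nat.mul_le_mul_right _ ?_
  by_cases h1 : 5 ∣ Nat.card (centralizer ({g} : Set G))
  · obtain ⟨⟨y, hyg⟩, hy⟩ := exists_prime_orderOf_dvd_card' 5 h1
    replace hy : orderOf y = 5 := (orderOf_coe _).trans hy
    have h2 : pCore 2 G ⊓ centralizer {g} ≤ centralizer {y} := fun a ha =>
      mem_centralizer_singleton_iff.2 ((h.lemmaS' (Q := pCore 2 G ⊓ centralizer {g}) (by norm_num)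
        hy (not_five_dvd inf_le_left) (inf_normalizer_le_normalizer_inf
          ⟨le_normalizer_of_normal (mem_top y), le_normalizer hyg⟩)).resolve_right
        (fun e => hg (h.mem_center_of_irr e.1 (sup_le inf_le_right (zpowers_le.2 hyg)))) a ha)
    have h3 := card_dvd_of_free (A := zpowers y) (fun a (q : pCore 2 G) =>
      (⟨a * q * (a : G)⁻¹, Normal.conj_mem inferInstance _ q.2 _⟩ : pCore 2 G)) (by simp)
      (by simp [mul_assoc]) (· ∉ (centralizer {y}).subgroupOf (pCore 2 G))
      (fun a q hq e => hq ((mul_mem_cancel_left (zpowers_le.2 (mem_centralizer_singleton_iff.2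
        rfl) a.2)).1 ((mul_mem_cancel_right (inv_mem (zpowers_le.2
          (mem_centralizer_singleton_iff.2 rfl) a.2))).1 e)))
      fun a q hq e => Subtype.ext (by_contra fun h1 => hq (mem_centralizer_singleton_iff.2
        (mem_centralizer_singleton_iff.1 (le_of_mem_prime (K := centralizer {q.1})
          ((Nat.card_zpowers y).trans hy) a.2 h1 (mem_centralizer_singleton_iff.2
            (mul_inv_eq_iff_eq_mul.1 (congrArg Subtype.val e))) (mem_zpowers y))).symm))
    haveI := Fintype.ofFinite (pCore 2 G)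
    rw [Nat.card_eq_fintype_card (α := {q // q ∉ (centralizer {y}).subgroupOf (pCore 2 G)}),
      Fintype.card_subtype_compl, ← Nat.card_eq_fintype_card, ← Nat.card_eq_fintype_card,
      Nat.card_zpowers, hy, ← card_mul_index ((centralizer {y}).subgroupOf (pCore 2 G)),
      ← Nat.mul_sub_one] at h3
    have h4 := ((Nat.Prime.dvd_mul Fact.out).1 h3).resolve_left fun e =>
      not_five_dvd le_rfl (e.trans (card_subgroup_dvd_card _))
    have h6 : (centralizer {y}).relIndex (pCore 2 G) ≠ 1 := fun e => h5 y hy fun a ha =>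
      mem_centralizer_singleton_iff.1 (relIndex_eq_one.1 e ha)
    have h7 := relIndex_le_of_le_left (L := pCore 2 G) h2 index_ne_zero_of_finite
    have h8 := relIndex_le_of_le_right (H := centralizer {g}) (le_top : pCore 2 G ≤ ⊤)
      index_ne_zero_of_finite
    rw [inf_relIndex_left] at h7
    rw [relIndex_top_right] at h8
    obtain ⟨k, hk⟩ := IsPGroup.iff_card.1 (Fit.isPGroup_pCore 2 G)
    obtain ⟨i, -, hi⟩ := (Nat.dvd_prime_pow Nat.prime_two).1
      (hk ▸ relIndex_dvd_card (centralizer {y}) (pCore 2 G))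
    rw [show ((centralizer {y}).subgroupOf (pCore 2 G)).index = _ from hi] at h4
    rw [hi] at h6 h7
    have : 4 ≤ i := by
      by_contra hc
      have : i ≤ 3 := by omega
      interval_cases i <;> omega
    have := Nat.pow_le_pow_right two_pos this
    omega
  have h2 := ((Nat.Prime.dvd_mul Fact.out).1 ((centralizer ({g} : Set G)).index_mul_card ▸ hx ▸
    orderOf_dvd_natCard x)).resolve_right h1
  have h3 : (centralizer ({g} : Set G)).index ≠ 0 := index_ne_zero_of_finite
  have h4 : (centralizer ({g} : Set G)).index ≠ 5 := fun e => by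
    obtain ⟨S, hS⟩ := exists_sylowIn (p := 2) (centralizer ({g} : Set G))
    have e1 := ((hS.trans le_top (by rw [relIndex_top_right, e]; norm_num)).le_of_le_normalizer
      (Fit.isPGroup_pCore 2 G) le_top le_normalizer_of_normal).trans hS.le
    have e2 : centralizer (pCore 2 G : Set G) ≤ pCore 2 G := by
      refine Fit.le_pCore inferInstance (IsPGroup.iff_card.2 ?_)
      obtain ⟨i, -, hi⟩ := (Nat.dvd_prime_pow Nat.prime_two).1 ((Nat.Coprime.dvd_mul_right
        ((Nat.Prime.coprime_iff_not_dvd Fact.out).2 fun e => by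
          obtain ⟨⟨y, hyg⟩, hy⟩ := exists_prime_orderOf_dvd_card' 5 e
          exact h5 y ((orderOf_coe _).trans hy) hyg).symm).1
        ((card_subgroup_dvd_card (centralizer (pCore 2 G : Set G))).trans hd))
      exact ⟨i, hi⟩
    exact hg (h.le_center_four hd h5 hx _ e2 (fun a ha b hb => hb a (e2 ha))
      fun a ha => mem_centralizer_singleton_iff.1 (e1 ha))
  omega

end FC

theorem ord_three_13 : orderOf ((3 : ℕ) : ZMod 13) = 3 := orderOf_eq_prime (by decide) (by decide)

theorem ord_three_5 : orderOf ((3 : ℕ) : ZMod 5) = 4 :=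
  (orderOf_eq_iff (by norm_num)).2 ⟨by decide, by decide⟩

variable {p : ℕ} [hp : Fact p.Prime] {V : Type*} [AddCommGroup V] [Module (ZMod p) V] [Finite V]
  {ρ : Representation (ZMod p) G V} {χ : G → ℂ} {v : V}

theorem TS.goal_four (h : TS ρ) (hn : finrank (ZMod p) V = 4) (hv : v ≠ 0) (hχ : FC p χ 4)
    (h3 : p = 3) : Goal ρ v := by
  subst h3
  haveI : Fact (Nat.Prime 13) := ⟨by norm_num⟩
  haveI : Fact (Nat.Prime 5) := ⟨by norm_num⟩
  have h1 : Nat.card G ∣ 3 ^ 6 * (13 * (2 ^ 9 * 5)) :=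
    (h.card_dvd_GL hn).trans (by decide)
  replace h1 := (Nat.Coprime.dvd_mul_left (Nat.Coprime.pow_right _
    ((Nat.Prime.coprime_iff_not_dvd hp.out).2 h.cop).symm)).1 h1
  have h2 : ¬ 13 ∣ Nat.card G := fun e => by
    obtain ⟨P, hP⟩ := exists_sylowIn (p := 13) (⊤ : Subgroup G)
    have hc : Nat.card P = 13 := by
      obtain ⟨k, hk⟩ := IsPGroup.iff_card.1 hP.isPGroup
      have e2 := hP.ne_bot (card_top (G := G) ▸ e)
      have e3 := (card_subgroup_dvd_card P).trans h1
      rw [Ne, ← card_eq_one] at e2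
      rw [hk] at e2 e3 ⊢
      rcases k with _ | _ | k
      · exact absurd rfl e2
      · rfl
      · exact absurd ((pow_dvd_pow 13 (show 2 ≤ k + 1 + 1 by omega)).trans e3) (by norm_num)
    haveI := hχ.dag_normal (by norm_num) ord_three_13 (Or.inr ⟨rfl, rfl⟩) hP hc
    have := (h.semi P (comm_of_card_prime hc)).dvd_top
    rw [hc, hn] at this
    omega
  have hd := (Nat.Coprime.dvd_mul_left ((Nat.Prime.coprime_iff_not_dvd Fact.out).2 h2).symm).1 h1
  by_cases h5 : ∀ x : G, orderOf x = 5 → x ∉ centralizer (pCore 2 G : Set G)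
  swap
  · push Not at h5
    obtain ⟨x, hx, hc⟩ := h5
    haveI := burnside (a := 9) (b := 1) Nat.prime_two Nat.prime_five hd
    refine h.goal_of_cent hn hv hχ (by norm_num) ord_three_5 hx fun s hs e => ?_
    by_cases e2 : s = 2
    · exact e2 ▸ hc
    · rw [Fit.pCore_eq_bot_of_coprime (Nat.Coprime.coprime_dvd_left hd (Nat.Coprime.mul_left
        (Nat.Coprime.pow_left _ ((Nat.coprime_primes Nat.prime_two hs).2 (Ne.symm e2)))
        ((Nat.coprime_primes Fact.out hs).2 (Ne.symm e))))]
      rintro _ rfl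
      simp
  obtain ⟨x, hx⟩ := exists_prime_orderOf_dvd_card' 5 (h.dvd_card hn hv ord_three_5.dvd)
  have e1 := Nat.le_of_dvd (by norm_num) (hχ.card_center_dvd (hχ.irr_four hd h5 hx))
  have e2 := hχ.card_core_four hd h5 hx
  have e3 := hχ.card_le_four hd h5 hx
  have e4 := card_conj_le_of (hχ.class_four hd h5 hx)
  have e5 := h.card_eq' hn hv
  have e6 : 10 * Nat.card (ConjClasses G) + Nat.card (center G) ≤
      10 * Nat.card (center G) + Nat.card G :=
    Nat.le_of_mul_le_mul_right (by nlinarith) (Nat.card_pos (α := G))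
  refine goal_of_lt ?_
  rw [card_pow 3 V, hn]
  omega

end Cfsg.Agent.Trans
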