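import Cfsg.Agent.Lib.Trans.Mult

/-!
# Lifting a coprime modular representation to a complex character
-/

set_option autoImplicit false
set_option linter.unusedSectionVars false
set_option linter.style.haveILetI false

namespace Cfsg.Agent.Trans

open MonoidAlgebra Cfsg.Agent.Block Cfsg.Agent.Char Cfsg.Agent.Tr Subgroup Module
open scoped ComplexConjugate

variable {G : Type*} [Group G] [Finite G]

/-- A faithful character that is invariant under `g ↦ g ^ p`. -/
structure FC (p : ℕ) (χ : G → ℂ) (n : ℕ) : Prop where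
  char : IsCharacter G χ
  one : χ 1 = n
  faith : ∀ g, χ g = χ 1 → g = 1
  frob : ∀ g, χ (g ^ p) = χ g
  cop : ¬ p ∣ Nat.card G

theorem FC.comp {p n : ℕ} {χ : G → ℂ} (h : FC p χ n) {H : Type*} [Group H] [Finite H]
    (f : H →* G) (hf : Function.Injective f) : FC p (fun x => χ (f x)) n where
  char := isChar_comp h.char f
  one := by rw [map_one, h.one]
  faith g hg := hf (by rw [map_one] at hg ⊢; exact h.faith _ hg)
  frob g := by rw [map_pow, h.frob]
  cop e := h.cop (e.trans (card_dvd_of_injective f hf))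

theorem FC.res {p n : ℕ} {χ : G → ℂ} (h : FC p χ n) (K : Subgroup G) :
    FC p (fun x : K => χ x) n := h.comp K.subtype K.subtype_injective

/-- The dimension of `a K[G] b`. -/
noncomputable def rk {K : Type*} [Field K] (a b : K[G]) : ℕ :=
  finrank K (LinearMap.range (LinearMap.mulLeft K a * LinearMap.mulRight K b))

theorem rk_map_le {K F : Type*} [Field K] [Field F] (σ : K →+* F) (a b : K[G]) :
    rk (mapRingHom G σ a) (mapRingHom G σ b) ≤ rk a b := by
  classical
  haveI := Fintype.ofFinite G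
  let B := finBasis K (LinearMap.range (LinearMap.mulLeft K a * LinearMap.mulRight K b))
  have hs : ∀ (c : K) (w : K[G]), mapRingHom G σ (c • w) = σ c • mapRingHom G σ w := fun c w =>
    ga_ext fun g => by simp
  refine le_trans (Submodule.finrank_mono (t := Submodule.span F
    (Set.range fun i => mapRingHom G σ (B i))) ?_) ((finrank_range_le_card _).trans (by simp [rk]))
  rintro _ ⟨w, rfl⟩
  rw [eq_sum_single w, map_sum]
  refine sum_mem fun g _ => ?_
  rw [map_smul]
  refine Submodule.smul_mem _ _ ?_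
  have e1 := congrArg (fun z => mapRingHom G σ z.1) (B.sum_repr ⟨_, single g 1, rfl⟩)
  simp only [Submodule.coe_sum, map_sum, Submodule.coe_smul, hs, Module.End.mul_apply,
    LinearMap.mulRight_apply, LinearMap.mulLeft_apply, map_mul, mapRingHom_single, map_one] at e1
  change mapRingHom G σ a * (single g 1 * mapRingHom G σ b) ∈ _
  rw [← e1]
  exact sum_mem fun i _ => Submodule.smul_mem _ _ (Submodule.subset_span ⟨i, rfl⟩)

theorem rk_add {K : Type*} [Field K] {e : K[G]} (he : e * e = e) :
    rk 1 e + rk 1 (1 - e) = finrank K K[G] := by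
  rw [← LinearMap.finrank_range_add_finrank_ker (LinearMap.mulLeft K 1 * LinearMap.mulRight K e),
    rk, rk]
  refine congrArg _ (congrArg (fun U : Submodule K K[G] => finrank K U) (Submodule.ext fun w => ?_))
  simp only [LinearMap.mem_range, LinearMap.mem_ker, Module.End.mul_apply, one_mul,
    LinearMap.mulRight_apply, LinearMap.mulLeft_apply]
  constructor
  · rintro ⟨v, rfl⟩
    rw [mul_assoc, sub_mul, one_mul, he, sub_self, mul_zero]
  · intro h
    exact ⟨w, by rw [mul_sub, h, mul_one, sub_zero]⟩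

theorem finrank_ga (K : Type*) [Field K] : finrank K K[G] = Nat.card G := by
  haveI := Fintype.ofFinite G
  rw [finrank_eq_card_basis (MonoidAlgebra.basis G K), Nat.card_eq_fintype_card]

theorem rk_map_one {K F : Type*} [Field K] [Field F] (σ : K →+* F) {e : K[G]} (he : e * e = e) :
    rk 1 (mapRingHom G σ e) = rk 1 e := by
  have h1 := rk_map_le σ 1 e
  have h2 := rk_map_le σ 1 (1 - e)
  have h3 := rk_add he
  have h4 := rk_add (e := mapRingHom G σ e) (by rw [← map_mul, he])
  rw [finrank_ga] at h3 h4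
  rw [map_sub, map_one] at h2
  rw [map_one] at h1
  omega

variable {M : Ideal AlgInt} [hM : M.IsMaximal] {p : ℕ} [hp : Fact p.Prime] [CharP (Res M) p]

variable (p) in
include p in
theorem rk_red {a b : ℂ[G]} (ha : a ∈ SG G M) (hb : b ∈ SG G M) (ha' : a * a = a)
    (hb' : b * b = b) : rk a b = rk (redA M a) (redA M b) := by
  have : redSub M (LinearMap.range (LinearMap.mulLeft ℂ a * LinearMap.mulRight ℂ b)) =
      LinearMap.range (LinearMap.mulLeft _ (redA M a) * LinearMap.mulRight _ (redA M b)) := by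
    ext v
    constructor
    · rintro ⟨_, ⟨w, rfl⟩, hw, rfl⟩
      refine ⟨redA M (a * (w * b)), ?_⟩
      change redA M a * (redA M (a * (w * b)) * redA M b) = redA M (a * (w * b))
      change a * (w * b) ∈ _ at hw
      rw [← redA_mul hw hb, ← redA_mul ha (mul_mem hw hb), ← mul_assoc, ← mul_assoc, ha',
        mul_assoc, mul_assoc, hb']
    · rintro ⟨v, rfl⟩
      obtain ⟨w, hw, rfl⟩ := exists_lift_SG v
      exact ⟨_, ⟨w, rfl⟩, mul_mem ha (mul_mem hw hb),
        (redA_mul ha (mul_mem hw hb)).trans (congrArg _ (redA_mul hw hb))⟩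
  rw [rk, rk, ← this]
  exact le_antisymm (finrank_range_le_redSub p one_ne_zero one_ne_zero (by rwa [one_smul])
    (by rwa [one_smul])) (finrank_redSub_le _)

theorem red_pow_char {θ : G → ℂ} (hθ : IsCharacter G θ) (g : G) :
    red M (θ g) ^ p = red M (θ (g ^ p)) := by
  obtain ⟨n, c, -, hc, h⟩ := exists_zpow_eq_sum_of_isChar hθ g
  have h1 := h 1
  have h2 := h p
  simp only [zpow_one, zpow_natCast] at h1 h2
  have hm : ∀ i, c i ∈ locRing M := fun i => mem_locRing_of_isIntegral
    (IsIntegral.of_pow (orderOf_pos g) (by rw [hc]; exact isIntegral_one))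
  rw [h1, h2, red_sum _ _ fun i _ => hm i, red_sum _ _ fun i _ => pow_mem (hm i) p, sum_pow_char]
  simp only [red_pow (hm _)]

omit hM [CharP (Res M) p] in
theorem exists_lift {V : Type*} [AddCommGroup V] [Module (ZMod p) V] [Finite V]
    (ρ : Representation (ZMod p) G V) (hG : ¬ p ∣ Nat.card G)
    (hf : ∀ g, (∀ v, ρ g v = v) → g = 1) {v₀ : V} (ht : ∀ w, w ≠ 0 → ∃ g, ρ g v₀ = w) :
    ∃ χ : G → ℂ, FC p χ (finrank (ZMod p) V) ∧ ∀ Y : Subgroup G,
      mu (fun y : Y => χ y) (irrOne Y) ≠ 0 → ∃ v ≠ 0, ∀ y ∈ Y, ρ y v = v := by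
  classical
  haveI := Fintype.ofFinite G
  obtain ⟨M, hM⟩ := exists_isPModular p
  haveI := hM.2.1
  haveI := charP_res hM
  haveI := isAlgClosed_res (M := M)
  haveI : NeZero (Nat.card G : ZMod p) := ⟨fun h => hG ((CharP.cast_eq_zero_iff _ p _).1 h)⟩
  let π : (ZMod p)[G] →ₗ[ZMod p] V := LinearMap.applyₗ v₀ ∘ₗ ρ.asAlgebraHom.toLinearMap
  have hπ : ∀ a b, π (a * b) = ρ.asAlgebraHom a (π b) := fun a b => by simp [π]
  let I : Submodule (ZMod p)[G] (ZMod p)[G] :=
    { carrier := {a | π a = 0}
      add_mem' := fun {a b} ha hb => by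
        rw [Set.mem_ofPred_eq] at ha hb ⊢; rw [map_add, ha, hb, add_zero]
      zero_mem' := map_zero π
      smul_mem' := fun c a ha => by
        rw [Set.mem_ofPred_eq] at ha ⊢; rw [smul_eq_mul, hπ, ha, map_zero] }
  obtain ⟨J, hJ⟩ := exists_isCompl I
  obtain ⟨f, hfI, e, heJ, hfe⟩ := Submodule.mem_sup.1 (hJ.sup_eq_top ▸ Submodule.mem_top (x := 1))
  have he1 : e = 1 - f := eq_sub_of_add_eq' hfe
  have hI : ∀ a, π a = 0 → a * e = 0 := fun a ha =>
    Submodule.disjoint_def.1 hJ.disjoint _ (by
      rw [he1, mul_sub, mul_one]; exact sub_mem ha (I.smul_mem a hfI)) (J.smul_mem a heJ)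
  have hee : e * e = e := by
    nth_rewrite 1 [he1]
    rw [sub_mul, one_mul, hI f hfI, sub_zero]
  have hπe : ∀ a, π (a * e) = π a := fun a => by
    rw [he1, mul_sub, mul_one, map_sub, hπ, show π f = 0 from hfI, map_zero, sub_zero]
  have hπs : ∀ g, π (single g 1) = ρ g v₀ := fun g => by simp [π]
  have hrk : rk 1 e = finrank (ZMod p) V := by
    have h1 := LinearMap.finrank_range_add_finrank_ker π
    have h2 := LinearMap.finrank_range_add_finrank_ker
      (LinearMap.mulLeft (ZMod p) 1 * LinearMap.mulRight (ZMod p) e)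
    have h3 : LinearMap.ker (LinearMap.mulLeft (ZMod p) 1 * LinearMap.mulRight (ZMod p) e) =
        LinearMap.ker π := by
      ext a
      simp only [LinearMap.mem_ker, Module.End.mul_apply, one_mul, LinearMap.mulRight_apply,
        LinearMap.mulLeft_apply]
      exact ⟨fun h => by rw [← hπe, h, map_zero], hI a⟩
    have h4 : LinearMap.range π = ⊤ := LinearMap.range_eq_top.2 fun w => by
      by_cases hw : w = 0
      · exact ⟨0, by rw [map_zero, hw]⟩
      · obtain ⟨g, rfl⟩ := ht w hw
        exact ⟨_, hπs g⟩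
    rw [h3] at h2
    rw [h4, finrank_top] at h1
    rw [rk]
    omega
  let σ : ZMod p →+* Res M := ZMod.castHom dvd_rfl _
  have hσ : Function.Injective (mapRingHom G σ) := fun a b h => ga_ext fun g =>
    σ.injective (by simpa using congrArg (fun z : (Res M)[G] => z.coeff g) h)
  obtain ⟨i, hiS, hi, hie⟩ := exists_idem_lift (M := M) (e := mapRingHom G σ e)
    (by rw [← map_mul, hee])
  choose d hd using fun χ : IrrCharacter G => exists_nat_ev_idem (isChar_irr χ) hi
  let χ : G → ℂ := ∑ ψ : IrrCharacter G, (d ψ : ℂ) • ψ.1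
  have hχ : IsCharacter G χ := isChar_sum_nat_smul_irr d
  have hev : ∀ a ∈ SG G M, a * a = a → ev χ a = rk (redA M a) (mapRingHom G σ e) :=
    fun a ha ha' => by
      rw [← hie, ← rk_red p ha hiS ha' hi, rk, finrank_range_eq_sum ha' hi, ev_sum_left]
      simp only [ev_smul_left, hd, mul_comm]
  have hone : χ 1 = finrank (ZMod p) V := by
    rw [← ev_one χ, hev 1 (one_mem _) (one_mul 1), redA_one, rk_map_one σ hee, hrk]
  have htriv : ∀ Y : Subgroup G, redA M (eTriv Y) =
      mapRingHom G σ ((Nat.card Y : ZMod p)⁻¹ • setSum (ZMod p) (Y : Set G)) := fun Y => by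
    have hY : ¬ p ∣ Nat.card Y := fun h => hG (h.trans (card_subgroup_dvd_card Y))
    refine ga_ext fun g => ?_
    rw [coeff_redA, eTriv, coeff_mapRingHom, coeff_smul_apply, coeff_smul_apply, coeff_setSum,
      coeff_setSum]
    split_ifs
    · rw [smul_eq_mul, smul_eq_mul, mul_one, mul_one, red_inv (red_natCast_ne_zero hY),
        red_natCast, map_inv₀, map_natCast]
    · simp
  have hevY : ∀ (Y : Subgroup G) [Fintype Y], ev χ (eTriv Y) =
      classInner (fun y : Y => χ y) (irrOne Y).1 := fun Y _ => by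
    have := ev_single_mul_eTriv χ 1 Y
    rw [← one_def, one_mul] at this
    rw [this, classInner]
    simp
  have hSG : ∀ Y : Subgroup G, eTriv Y ∈ SG G M := fun Y =>
    eTriv_mem_SG (p := p) fun h => hG (h.trans (card_subgroup_dvd_card Y))
  refine ⟨χ, ⟨hχ, hone, fun g hg => hf g fun v => ?_, fun g => ?_, hG⟩, fun Y hY => ?_⟩
  · haveI := Fintype.ofFinite (zpowers g)
    have h1 := hevY (zpowers g)
    rw [show (fun y : zpowers g => χ y) = χ 1 • fun _ => (1 : ℂ) from funext fun y => by
      simpa using (mem_charKer hχ).1 (zpowers_le.2 ((mem_charKer hχ).2 hg) y.2),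
      Char.inner_smul_left, show classInner _ (irrOne _).1 = 1 from inner_one_one, mul_one,
      hev _ (hSG _) (eTriv_mul_self _), ← ev_one χ, hev 1 (one_mem _) (one_mul 1), redA_one,
      Nat.cast_inj] at h1
    have h2 := Submodule.eq_of_le_of_finrank_eq (by
      rintro _ ⟨w, rfl⟩
      exact ⟨redA M (eTriv (zpowers g)) * w, by simp [mul_assoc]⟩) h1
    by_cases hv : v = 0
    · rw [hv, map_zero]
    obtain ⟨k, rfl⟩ := ht v hv
    obtain ⟨w, hw⟩ := h2.ge ⟨single k 1, rfl⟩
    simp only [Module.End.mul_apply, one_mul, LinearMap.mulRight_apply,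
      LinearMap.mulLeft_apply] at hw
    have h3 : single g 1 * (single k 1 * e) = single k 1 * e := hσ (by
      simp only [map_mul, mapRingHom_single, map_one]
      rw [← hw, ← mul_assoc, ← red_one (M := M), ← redA_single,
        ← redA_mul (single_one_mem_SG g) (hSG _), single_mul_eTriv (mem_zpowers g)])
    have := congrArg π h3
    rwa [hπ, hπe, hπs, Representation.asAlgebraHom_single_one] at this
  · obtain ⟨τ, hτ⟩ := exists_ringEquiv_char_pow G ((Nat.Prime.coprime_iff_not_dvd hp.out).2 hG)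
    have hg : ∀ ψ : IrrCharacter G, ∀ g, (irrGal τ ψ).1 g = ψ.1 (g ^ p) := fun ψ g =>
      hτ _ (isGen_of_isIrr ψ.2) g
    have hS : ∀ ψ : IrrCharacter G, idem {ψ} ∈ SG G M := fun ψ => idem_singleton_mem_SG (p := p)
      (by rw [Nat.factorization_eq_zero_of_not_dvd hG]; exact Nat.zero_le _)
    have h1 : ∀ ψ : IrrCharacter G, (d ψ * deg ψ : ℕ) =
        rk (redA M (idem {ψ})) (mapRingHom G σ e) := fun ψ => by
      have := hev _ (hS ψ) (idem_mul_self _)
      rw [ev_idem, Finset.sum_eq_single ψ (fun b _ hb => if_neg (show b ∉ ({ψ} : Set _) from hb))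
        (by simp), if_pos (Set.mem_singleton ψ),
        inner_sum_smul_irr fun ψ => (d ψ : ℂ), deg_spec] at this
      exact_mod_cast this
    have h2 : mapRingHom G (frobenius (Res M) p) (mapRingHom G σ e) = mapRingHom G σ e :=
      ga_ext fun g => by
        rw [coeff_mapRingHom, coeff_mapRingHom, frobenius_def, ← map_pow, ZMod.pow_card]
    have h3 : ∀ ψ : IrrCharacter G, mapRingHom G (frobenius (Res M) p) (redA M (idem {ψ})) =
        redA M (idem {irrGal τ ψ}) := fun ψ => ga_ext fun g => by
      have e1 := inv_natCast_mem_locRing (M := M) hG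
      rw [coeff_mapRingHom, coeff_redA, coeff_redA, coeff_idem_singleton, coeff_idem_singleton,
        ← irr_apply_inv, ← irr_apply_inv,
        red_mul e1 (mul_mem (irr_apply_mem_locRing _ _) (irr_apply_mem_locRing _ _)),
        red_mul e1 (mul_mem (irr_apply_mem_locRing _ _) (irr_apply_mem_locRing _ _)),
        red_mul (irr_apply_mem_locRing _ _) (irr_apply_mem_locRing _ _),
        red_mul (irr_apply_mem_locRing _ _) (irr_apply_mem_locRing _ _),
        red_inv (red_natCast_ne_zero hG), red_natCast, map_mul, map_mul, map_inv₀, map_natCast,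
        frobenius_def, frobenius_def, red_pow_char (isChar_irr ψ), red_pow_char (isChar_irr ψ),
        hg, hg]
    have h4 : ∀ ψ : IrrCharacter G, d (irrGal τ ψ) ≤ d ψ := fun ψ => by
      have := rk_map_le (frobenius (Res M) p) (redA M (idem {ψ})) (mapRingHom G σ e)
      rw [h2, h3, ← h1, ← h1, show deg (irrGal τ ψ) = deg ψ from Nat.cast_injective (R := ℂ) (by
        rw [← deg_spec, ← deg_spec, hg, one_pow])] at this
      exact Nat.le_of_mul_le_mul_right this (deg_pos ψ)
    have h5 := (Finset.sum_eq_sum_iff_of_le (s := Finset.univ) fun ψ _ => h4 ψ).1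
      (Equiv.sum_comp (irrGal τ) d)
    simp only [χ, Finset.sum_apply, Pi.smul_apply, smul_eq_mul]
    rw [← Equiv.sum_comp (irrGal τ) fun ψ => (d ψ : ℂ) * ψ.1 g]
    exact Finset.sum_congr rfl fun ψ hψ => by rw [h5 ψ hψ, hg]
  · haveI := Fintype.ofFinite Y
    have h1 := hevY Y
    rw [mu_spec (isChar_restrict hχ Y), hev _ (hSG _) (eTriv_mul_self _), htriv,
      Nat.cast_inj] at h1
    have h2 := (Nat.pos_of_ne_zero hY).trans_le (h1.ge.trans (rk_map_le σ _ e))
    obtain ⟨⟨_, w, rfl⟩, hw⟩ := finrank_pos_iff_exists_ne_zero.1 h2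
    refine ⟨π ((Nat.card Y : ZMod p)⁻¹ • setSum (ZMod p) (Y : Set G) * w), fun h => hw
      (Subtype.ext ((mul_assoc _ _ _).symm.trans (hI _ h))), fun y hy => ?_⟩
    rw [← Representation.asAlgebraHom_single_one, ← hπ, ← mul_assoc, mul_smul_comm,
      single_mul_setSum hy]

end Cfsg.Agent.Trans
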