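import Cfsg.Agent.Lib.Trans.Var

/-!
# Characters of small degree of groups generated by a TI Sylow subgroup
-/

set_option autoImplicit false
set_option linter.unusedSectionVars false
set_option linter.style.haveILetI false

namespace Cfsg.Agent.Trans

open MonoidAlgebra Cfsg.Agent.Block Cfsg.Agent.Char Cfsg.Agent.Tr Subgroup
open scoped ComplexConjugate

variable {G : Type*} [Group G] [Finite G]

theorem comm_of_norm {P : Subgroup G} (hG : normalClosure (P : Set G) = ⊤) {ξ : G → ℂ}
    (hξ : IsCharacter G ξ) (h : ∀ x ∈ P, ‖ξ x‖ = ‖ξ 1‖) (a b : G) :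
    ξ (a * b * a⁻¹ * b⁻¹) = ξ 1 := by
  haveI := charKer_normal hξ
  have key : ∀ a b : G, b ∈ (center (G ⧸ charKer hξ)).comap (QuotientGroup.mk' _) ↔
      ∀ a, a * b * a⁻¹ * b⁻¹ ∈ charKer hξ := fun a b => by
    rw [mem_comap, mem_center_iff, (QuotientGroup.mk'_surjective _).forall]
    refine forall_congr' fun a => ?_
    rw [← QuotientGroup.eq_one_iff, ← mul_inv_eq_iff_eq_mul, ← mul_inv_eq_one]
    rfl
  have : normalClosure (P : Set G) ≤ (center (G ⧸ charKer hξ)).comap (QuotientGroup.mk' _) :=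
    normalClosure_le_normal fun x hx => (key 1 x).2 fun a =>
      (mem_charKer hξ).2 (apply_commutator_of_norm_eq hξ (h x hx) a)
  exact (mem_charKer hξ).1 ((key 1 b).1 (this (hG ▸ mem_top b)) a)

theorem eq_one_of_supp {P : Subgroup G} (hG : normalClosure (P : Set G) = ⊤) {ψ : IrrCharacter G}
    [DecidableEq (IrrCharacter P)] (h : ((supp fun x : P => ψ.1 x).erase (irrOne P)).card = 0) :
    ψ = irrOne G := by
  haveI := charKer_normal (isChar_irr ψ)
  have : normalClosure (P : Set G) ≤ charKer (isChar_irr ψ) :=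
    normalClosure_le_normal fun x hx => (mem_charKer _).2
      (apply_eq_of_forall_mu (isChar_restrict (isChar_irr ψ) P) (g := ⟨x, hx⟩) fun l hl => by
        by_contra h1
        exact Finset.notMem_empty l (Finset.card_eq_zero.1 h ▸
          Finset.mem_erase.2 ⟨fun e => h1 (e ▸ rfl), mem_supp.2 hl⟩))
  exact Subtype.ext (eq_one_of_forall_apply_eq ψ.2 fun g =>
    (mem_charKer _).1 (this (hG ▸ mem_top g)))

theorem norm_eq_of_card_supp (hG : ∀ a b : G, a * b = b * a) {θ : G → ℂ} (hθ : IsCharacter G θ)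
    (h : (supp θ).card ≤ 1) (x : G) : ‖θ x‖ = ‖θ 1‖ := by
  rw [eq_sum_supp hθ, eq_sum_supp hθ 1]
  obtain ⟨l, hl⟩ := Finset.card_le_one_iff_subset_singleton.1 h
  rcases Finset.subset_singleton_iff.1 hl with e | e <;> rw [e]
  · simp
  · simp [norm_irr_of_one (apply_one_eq_one_of_comm l.2 hG)]

theorem isChar_mul_conj {θ : G → ℂ} (hθ : IsCharacter G θ) :
    IsCharacter G fun g => θ g * conj (θ g) := isChar_mul hθ (isChar_conj hθ)

theorem mu_mul_conj_one {θ : G → ℂ} (hθ : IsCharacter G θ) :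
    mu (fun g => θ g * conj (θ g)) (irrOne G) = ∑ ψ, mu θ ψ * mu θ ψ := by
  haveI := Fintype.ofFinite G
  refine mu_spec' ?_
  rw [← inner_eq_sum_mu hθ hθ, classInner, classInner]
  simp

theorem le_mu_mul_conj_one {θ : G → ℂ} (hθ : IsCharacter G θ) {m : ℕ} (hm : θ 1 = m)
    (h : ∀ φ, mu θ φ ≠ 0 → deg φ ≤ 1) : m ≤ mu (fun g => θ g * conj (θ g)) (irrOne G) := by
  rw [mu_mul_conj_one hθ, ← sum_mu_deg hθ hm]
  refine Finset.sum_le_sum fun φ _ => ?_
  by_cases h0 : mu θ φ = 0
  · simp [h0]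
  · exact Nat.mul_le_mul_left _ ((h φ h0).trans (Nat.pos_of_ne_zero h0))

theorem card_supp_mul_conj (hG : ∀ a b : G, a * b = b * a) {θ : G → ℂ} (hθ : IsCharacter G θ) :
    (supp fun g => θ g * conj (θ g)).card + (supp θ).card ≤ (supp θ).card ^ 2 + 1 := by
  classical
  haveI := Fintype.ofFinite G
  have h1 : ∀ l : IrrCharacter G, l.1 1 = 1 := fun l => apply_one_eq_one_of_comm l.2 hG
  let mc : IrrCharacter G × IrrCharacter G → IrrCharacter G := fun t =>
    ⟨t.1.1 * fun g => conj (t.2.1 g), isIrr_mul_of_apply_one t.1.2 (isChar_conj (isChar_irr _))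
      (by simp [h1])⟩
  have h2 : (supp fun g => θ g * conj (θ g)) ⊆ insert (irrOne G) ((supp θ).offDiag.image mc) := by
    intro ν hν
    by_contra hcon
    refine mem_supp.1 hν (mu_spec' ?_)
    have e : (fun g => θ g * conj (θ g)) = ∑ l ∈ supp θ, ∑ l' ∈ supp θ,
        ((mu θ l : ℂ) * mu θ l') • (mc (l, l')).1 := by
      ext g
      conv_lhs => rw [eq_sum_supp hθ g, map_sum, Finset.sum_mul_sum]
      simp only [Finset.sum_apply, Pi.smul_apply, mc, Pi.mul_apply, smul_eq_mul, map_mul,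
        map_natCast]
      exact Finset.sum_congr rfl fun _ _ => Finset.sum_congr rfl fun _ _ => by ring
    rw [e, inner_sum_left, Finset.sum_eq_zero, Nat.cast_zero]
    intro l hl
    rw [inner_sum_left, Finset.sum_eq_zero]
    intro l' hl'
    rw [Char.inner_smul_left, inner_irr, if_neg, mul_zero]
    rintro rfl
    refine hcon (Finset.mem_insert.2 ?_)
    by_cases hll : l = l'
    · refine Or.inl (Subtype.ext (funext fun g => ?_))
      change l.1 g * conj (l'.1 g) = 1
      rw [hll, Complex.mul_conj, Complex.normSq_eq_norm_sq, norm_irr_of_one (h1 _)]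
      simp
    · exact Or.inr (Finset.mem_image_of_mem _ (Finset.mem_offDiag.2 ⟨hl, hl', hll⟩))
  have h3 := (Finset.card_le_card h2).trans ((Finset.card_insert_le _ _).trans
    (Nat.add_le_add_right Finset.card_image_le 1))
  rw [Finset.offDiag_card] at h3
  have := Nat.le_mul_self (supp θ).card
  rw [sq]
  omega

theorem mu_one_comp {H : Type*} [Group H] [Finite H] (f : H →* G) :
    mu (fun x => (irrOne G).1 (f x)) (irrOne H) = 1 := mu_self (irrOne H)

theorem TIS.comm_of_sq {r : ℕ} [Fact r.Prime] {P : Subgroup G} (h : TIS r P)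
    (hG : normalClosure (P : Set G) = ⊤) (ξ : IrrCharacter G) (h1 : (ee P + 1) ^ 2 ≤ Nat.card P)
    (h2 : 2 * (supp fun x : P => ξ.1 x).card ≤ Nat.card P) (a b : G) :
    ξ.1 (a * b * a⁻¹ * b⁻¹) = ξ.1 1 := by
  classical
  by_cases hσ : (supp fun x : P => ξ.1 x).card ≤ 1
  · exact comm_of_norm hG (isChar_irr ξ) (fun x hx =>
      norm_eq_of_card_supp h.comm (isChar_restrict (isChar_irr ξ) P) hσ ⟨x, hx⟩) a b
  exfalso
  have v1 := h.variance ξ
  have hθ := isChar_restrict (isChar_irr ξ) P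
  have s1 : (supp fun x : P => ξ.1 x).card ≤ ee P := by
    by_contra hc
    obtain ⟨t, ht⟩ := Nat.exists_eq_add_of_le (Nat.succ_le_of_lt (not_le.1 hc))
    rw [ht] at v1 h2
    obtain ⟨s, hs⟩ := Nat.exists_eq_add_of_le h2
    nlinarith
  have s2 : 2 ≤ mu (fun x : P => ξ.1 x * conj (ξ.1 x)) (irrOne P) := by
    have := card_supp_le hθ (deg_spec ξ)
    exact le_trans (by omega) (le_mu_mul_conj_one hθ (deg_spec ξ) fun φ _ =>
      (deg_eq_one_iff.2 (apply_one_eq_one_of_comm φ.2 h.comm)).le)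
  have hΘ := isChar_mul_conj (isChar_irr ξ)
  have s3 := mu_comp hΘ P.subtype (irrOne P)
  rw [← Finset.add_sum_erase _ _ (Finset.mem_univ (irrOne G)), mu_one_comp, mu_mul_conj_one
    (isChar_irr ξ), Finset.sum_eq_single ξ (fun b _ hb => by rw [mu_irr, if_neg hb.symm, mul_zero])
    (by simp), mu_self] at s3
  obtain ⟨ψ, hψ, h3⟩ := Finset.exists_ne_zero_of_sum_ne_zero (s := Finset.univ.erase (irrOne G))
    (f := fun ψ => mu (fun g => ξ.1 g * conj (ξ.1 g)) ψ *
      mu (fun x : P => ψ.1 (P.subtype x)) (irrOne P)) (by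
      intro e
      rw [e] at s3
      exact absurd (s2.trans_eq s3) (by norm_num))
  have v2 := h.variance ψ
  have s4 : (supp fun x : P => ψ.1 x) ⊆ supp fun x : P => ξ.1 x * conj (ξ.1 x) := fun l hl =>
    mem_supp.2 ((Nat.pos_of_ne_zero (mem_supp.1 hl)).trans_le
      (mu_le_of_mu_ne hΘ P.subtype l (left_ne_zero_of_mul h3))).ne'
  have s5 := card_supp_mul_conj h.comm hθ
  have s6 := Finset.card_le_card s4
  have s7 := Finset.card_erase_add_one (mem_supp.2 (right_ne_zero_of_mul h3))
  have s8 := Nat.le_of_dvd (Nat.pos_of_ne_zero fun e => Finset.ne_of_mem_erase hψ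
    (eq_one_of_supp hG e)) (h.ee_dvd (isChar_irr ψ))
  change _ + 1 = (supp fun x : P => ψ.1 x).card at s7
  change _ ≤ ((supp fun x : P => ψ.1 (P.subtype x)).erase _).card at s8
  generalize (supp fun x : P => ψ.1 x).card = τ at *
  generalize (supp fun x : P => ξ.1 x).card = σ at *
  generalize ee P = e at *
  generalize Nat.card P = M at *
  have s9 : τ + e ≤ e ^ 2 + 1 := by nlinarith
  obtain ⟨t, rfl⟩ : ∃ t, τ = e + 1 + t := Nat.exists_eq_add_of_le (by omega)
  obtain ⟨s, rfl⟩ := Nat.exists_eq_add_of_le h1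
  obtain ⟨d, rfl⟩ : ∃ d, e = 2 + d := Nat.exists_eq_add_of_le (by omega)
  have : t ≤ d ^ 2 + 2 * d := by nlinarith
  nlinarith [Nat.mul_le_mul_left t this]

theorem tis_of_prime {r : ℕ} [Fact r.Prime] {P : Subgroup G} (hP : SylowIn r P ⊤)
    (hc : Nat.card P = r) : TIS r P := by
  obtain ⟨X, u, y, h⟩ := exists_ordP hP hc
  exact ⟨hP, h.le_cent, fun x hx h1 => (h.cent_eq hx h1).le⟩

theorem resMult_eq_mu (P : Subgroup G) (χ : IrrCharacter G) (l : IrrCharacter P) :
    resMult P χ l = mu (fun x : P => χ.1 x) l := by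
  haveI := Fintype.ofFinite P
  exact (mu_spec' (resMult_spec P χ l)).symm

theorem deg_le_one_of_prime {r : ℕ} [hr : Fact r.Prime] {P : Subgroup G} (hP : SylowIn r P ⊤)
    (hc : Nat.card P = r) (hG : normalClosure (P : Set G) = ⊤) (ξ : IrrCharacter G)
    (h1 : ∀ l, mu (fun x : P => ξ.1 x) l ≤ 1) (h2 : 2 * deg ξ + 1 < r) : deg ξ ≤ 1 := by
  classical
  obtain ⟨M, hM⟩ := exists_isPModular r
  haveI := hM.2.1
  haveI := charP_res hM
  obtain ⟨X, u, y, h⟩ := exists_ordP hP hc
  have ht := tis_of_prime hP hc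
  haveI := Fintype.ofFinite P
  haveI := Fintype.ofFinite X
  have hdp := deg_pos ξ
  by_cases hξ : ξ = irrOne G
  · rw [hξ, deg_irrOne]
  have he : ee P ≤ deg ξ := (Nat.le_of_dvd (Nat.pos_of_ne_zero fun e => hξ (eq_one_of_supp hG e))
    (ht.ee_dvd (isChar_irr ξ))).trans ((Finset.card_erase_le).trans
      (card_supp_le (isChar_restrict (isChar_irr ξ) P) (deg_spec ξ)))
  let f : P × X →* G := MonoidHom.noncommCoprod P.subtype X.subtype fun x t => h.X_le t.2 x x.2
  have hf : ∀ x t, f (x, t) = x * t := fun _ _ => rfl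
  let lf : IrrCharacter P → IrrCharacter (P × X) := fun l =>
    ⟨_, isIrr_comp_of_surjective l.2 (MonoidHom.fst P X) Prod.fst_surjective⟩
  let a : IrrCharacter G → IrrCharacter P → ℕ := fun ψ l => mu (fun x : P => ψ.1 x) l
  let c : IrrCharacter G → ℕ := fun ψ => mu (fun x => ψ.1 (f x)) (irrOne _)
  let T : IrrCharacter G → ℕ := fun ψ => ∑ l ∈ Finset.univ.erase (irrOne P), a ψ l
  have hcard : (Finset.univ.erase (irrOne P)).card = r - 1 := by
    rw [Finset.card_erase_of_mem (Finset.mem_univ _), Finset.card_univ, h.card_irr]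
  have hT : ∀ ψ, a ψ (irrOne P) + T ψ = deg ψ := fun ψ => by
    have := sum_mu_deg (isChar_restrict (isChar_irr ψ) P) (deg_spec ψ)
    simp only [deg_eq_one_iff.2 (h.deg_eq_one _), mul_one] at this
    rw [← this, Finset.add_sum_erase _ _ (Finset.mem_univ _)]
  have hle : ∀ (ψ : IrrCharacter G) l, mu (fun x => ψ.1 (f x)) (lf l) ≤ a ψ l := fun ψ l => by
    have := mu_mul_mu_le (isChar_comp (isChar_irr ψ) f) (MonoidHom.inl P X) l (lf l)
    rw [show mu (fun x => (lf l).1 (MonoidHom.inl P X x)) l = 1 from mu_self l, mul_one] at this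
    simpa [hf] using this
  have key : ∀ ψ, ψ ≠ irrOne G → (r - 1) * c ψ ≤ 2 * T ψ := by
    intro ψ hψ
    by_cases hB : ψ ∈ principalBlock M G
    · obtain ⟨i, hiS, hi, hloc, h0⟩ := exists_locIdem_ev_ne_zero (M := M) r ψ
      choose d hd using fun χ : IrrCharacter G => exists_nat_ev_idem (isChar_irr χ) hi
      have hd0 : (1 : ℤ) ≤ d ψ := by
        have : d ψ ≠ 0 := fun e => h0 ((hd _).trans (Nat.cast_eq_zero.2 e))
        omega
      have t1 : ∀ l l', a ψ l ≤ a ψ l' + 1 := fun l l' => by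
        have := h.thompson_sum hiS hloc hi d hd {⟨ψ, hB⟩} l l'
        rw [Finset.sum_singleton, resMult_eq_mu, resMult_eq_mu] at this
        change (d ψ : ℤ) * ((a ψ l : ℤ) - a ψ l') ≤ 1 at this
        by_contra hcon
        nlinarith [show (a ψ l' : ℤ) + 2 ≤ a ψ l by omega]
      have t2 : c ψ ≤ a ψ (irrOne P) := hle ψ (irrOne P)
      by_cases hz : ∃ l, a ψ l = 0
      · obtain ⟨l₀, hl₀⟩ := hz
        by_contra hcon
        have t3 := t1 (irrOne P) l₀
        have t4 : c ψ = 1 := by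
          rcases Nat.eq_zero_or_pos (c ψ) with e | e
          · simp [e] at hcon
          · omega
        have t5 : T ψ = ((supp fun x : P => ψ.1 x).erase (irrOne P)).card := by
          rw [Finset.card_eq_sum_ones, supp, ← Finset.filter_erase, Finset.sum_filter]
          refine Finset.sum_congr rfl fun l _ => ?_
          have := t1 l l₀
          change a ψ l = if a ψ l ≠ 0 then 1 else 0
          split_ifs <;> omega
        have t6 := ht.ee_dvd (isChar_irr ψ)
        have t7 : T ψ ≠ 0 := fun e => hψ (eq_one_of_supp hG (t5 ▸ e))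
        rw [← t5] at t6
        obtain ⟨ε, hε, t8⟩ := (h.brauer (M := M) (by omega)).2 ψ hB
        rw [card_range_eq_ee, charDegree_eq (deg_spec ψ), ← hT] at t8
        rw [t4] at hcon
        have t9 : a ψ (irrOne P) = 1 := by omega
        have hep := ee_pos P
        rw [t9] at t8
        obtain ⟨k, hk⟩ := t6
        rcases hε with rfl | rfl <;> rcases t8 with t8 | t8
        · have := Int.le_of_dvd (by omega) t8.symm.dvd
          omega
        · have := Int.eq_zero_of_abs_lt_dvd t8.dvd (by rw [abs_lt]; omega)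
          have e1 : ee P = 1 + ee P * k := by omega
          rcases Nat.eq_zero_or_pos k with e | e
          · simp [e] at hk; omega
          · nlinarith
        · have := Int.le_of_dvd (by omega) t8.symm.dvd
          omega
        · have := Int.le_of_dvd (by omega) t8.symm.dvd
          omega
      · push Not at hz
        rw [← hcard, ← smul_eq_mul, ← Finset.sum_const, Finset.mul_sum]
        refine Finset.sum_le_sum fun l _ => ?_
        have := t1 (irrOne P) l
        have := hz l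
        omega
    · have t1 : ∀ l, classInner (fun x => ψ.1 (f x)) (lf l).1 =
          (Nat.card (P × X) : ℂ)⁻¹ * ∑ t : X, ψ.1 t := fun l => by
        rw [classInner, Fintype.sum_prod_type, Finset.sum_eq_single 1]
        · simp [hf, lf, h.deg_eq_one]
        · intro x _ hx
          have := h.ev_single_of_notMem (M := M) x.2 (fun e => hx (Subtype.ext e)) hB
          rw [ev_single_mul_eTriv, mul_eq_zero, inv_eq_zero] at this
          change ∑ t : X, ψ.1 (x * t) * conj (l.1 x) = 0
          rw [← Finset.sum_mul, this.resolve_left (card_ne_zero_complex X), zero_mul]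
        · simp
      have t2 : ∀ l, c ψ ≤ a ψ l := fun l => by
        refine le_trans (le_of_eq ?_) (hle ψ l)
        refine mu_spec' ((t1 (irrOne P)).trans ?_)
        rw [← t1 l, mu_spec (isChar_comp (isChar_irr ψ) f)]
      rw [← hcard, ← smul_eq_mul, ← Finset.sum_const, Finset.mul_sum]
      refine Finset.sum_le_sum fun l _ => ?_
      have := t2 l
      omega
  have hΘ := isChar_mul_conj (isChar_irr ξ)
  set n := mu fun g => ξ.1 g * conj (ξ.1 g) with hn
  have n1 : n (irrOne G) = 1 := by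
    rw [hn, mu_mul_conj_one (isChar_irr ξ), Finset.sum_eq_single ξ (fun b _ hb => by
      rw [mu_irr, if_neg hb.symm, mul_zero]) (by simp), mu_self]
  have s1 : deg ξ ≤ ∑ ψ, n ψ * c ψ := by
    rw [← mu_comp hΘ f]
    refine le_mu_mul_conj_one (isChar_comp (isChar_irr ξ) f) (by rw [map_one, deg_spec])
      fun φ hφ => (deg_le_mu_cch φ (MonoidHom.inl P X) (fun x g => Prod.ext (ht.comm _ _)
        (by simp)) (isChar_comp (isChar_irr ξ) f) hφ).trans ?_
    simpa [hf] using h1 _
  have s2 : deg ξ ≤ ∑ ψ, n ψ * a ψ (irrOne P) := by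
    have := mu_comp hΘ P.subtype (irrOne P)
    refine le_trans ?_ this.le
    exact le_mu_mul_conj_one (isChar_restrict (isChar_irr ξ) P) (deg_spec ξ) fun φ _ =>
      (deg_eq_one_iff.2 (h.deg_eq_one φ)).le
  have s3 : ∑ ψ, n ψ * a ψ (irrOne P) + ∑ ψ, n ψ * T ψ = deg ξ * deg ξ := by
    rw [← Finset.sum_add_distrib, ← sum_mu_deg hΘ (n := deg ξ * deg ξ) (by rw [deg_spec]; simp)]
    exact Finset.sum_congr rfl fun ψ _ => by rw [← mul_add, hT]
  have s4 : (r - 1) * ∑ ψ ∈ Finset.univ.erase (irrOne G), n ψ * c ψ ≤ 2 * ∑ ψ, n ψ * T ψ := by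
    rw [Finset.mul_sum, Finset.mul_sum]
    refine le_trans (Finset.sum_le_sum fun ψ hψ => ?_)
      (Finset.sum_le_sum_of_subset (Finset.erase_subset (irrOne G) _))
    rw [mul_left_comm, mul_left_comm 2]
    exact Nat.mul_le_mul_left _ (key ψ (Finset.ne_of_mem_erase hψ))
  rw [← Finset.add_sum_erase _ _ (Finset.mem_univ (irrOne G)), n1,
    show c (irrOne G) = 1 from mu_one_comp f] at s1
  generalize ∑ ψ ∈ Finset.univ.erase (irrOne G), n ψ * c ψ = A at *
  generalize ∑ ψ, n ψ * T ψ = B at *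
  obtain ⟨m, hm⟩ : ∃ m, deg ξ = m + 1 := ⟨deg ξ - 1, by omega⟩
  obtain ⟨s, hs⟩ : ∃ s, r - 1 = 2 * m + 3 + s := ⟨r - 1 - (2 * m + 3), by omega⟩
  rw [hm] at s1 s2 s3 ⊢
  rw [hs] at s4
  have : m ≤ A := by omega
  nlinarith [Nat.mul_le_mul_left (2 * m + 3 + s) this]

end Cfsg.Agent.Trans
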