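import Cfsg.Agent.Lib.Trans.Four

/-!
# Class numbers for transitive coprime linear groups
-/

set_option autoImplicit false
set_option linter.unusedSectionVars false
set_option linter.style.haveILetI false

namespace Cfsg.Agent.Trans

open Cfsg.Agent.Block Cfsg.Agent.Char Cfsg.Agent.Tr Subgroup Module

variable {G : Type*} [Group G] [Finite G]

theorem card_conj_congr {H : Type*} [Group H] [Finite H] (e : G ≃* H) :
    Nat.card (ConjClasses G) = Nat.card (ConjClasses H) :=
  le_antisymm (Nat.card_le_card_of_surjective _ (ConjClasses.map_surjective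
    (f := e.symm.toMonoidHom) e.symm.surjective))
    (Nat.card_le_card_of_surjective _ (ConjClasses.map_surjective (f := e.toMonoidHom) e.surjective))

theorem ord_three_7 : orderOf ((3 : ℕ) : ZMod 7) = 6 :=
  (orderOf_eq_iff (by norm_num)).2 ⟨by decide, by decide⟩

theorem ord_five_7 : orderOf ((5 : ℕ) : ZMod 7) = 6 :=
  (orderOf_eq_iff (by norm_num)).2 ⟨by decide, by decide⟩

theorem ord_17_7 : orderOf ((17 : ℕ) : ZMod 7) = 6 :=
  (orderOf_eq_iff (by norm_num)).2 ⟨by decide, by decide⟩

theorem ord_five_31 : orderOf ((5 : ℕ) : ZMod 31) = 3 := orderOf_eq_prime (by decide) (by decide)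

theorem ord_17_307 : orderOf ((17 : ℕ) : ZMod 307) = 3 :=
  orderOf_eq_prime (by decide +kernel) (by decide +kernel)

variable {p : ℕ} [hp : Fact p.Prime] {V : Type*} [AddCommGroup V] [Module (ZMod p) V] [Finite V]
  {ρ : Representation (ZMod p) G V} {v : V}

theorem TS.goal (h : TS ρ) (hv : v ≠ 0) : Goal ρ v := by
  obtain ⟨χ, hχ, hf⟩ := exists_lift ρ h.cop h.faith fun w hw => h.trans v w hv hw
  haveI : Nontrivial V := ⟨v, 0, hv⟩
  have h0 : 0 < finrank (ZMod p) V := finrank_pos
  generalize hn : finrank (ZMod p) V = n at hχ h0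
  by_cases h1 : n = 1
  · exact h.caseA ⊤ (fun a _ b _ => comm_of_deg hχ.char hχ.faith
      (fun ψ hψ => (deg_le_of_mu hχ.char hχ.one hψ).trans h1.le) a b) h.irred_top hv
  by_cases h2 : p = 2
  · exact h.goal_even hn hv hχ hf h2 (by omega)
  by_cases h3 : n = 2
  · subst h3
    exact h.goal_two hn h2 hχ hv
  have := hp.out.two_le
  rcases exists_good_ppd hp.out (by omega) (show 3 ≤ n by omega) with ⟨r, hr, ho, hc⟩ | e
  · exact h.goal_good hn hv hχ h0 hr ho hc
  simp only [List.mem_cons, Prod.mk.injEq, List.not_mem_nil, or_false] at e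
  rcases e with ⟨rfl, e⟩ | ⟨rfl, rfl⟩ | ⟨rfl, rfl⟩ | ⟨rfl, rfl⟩ | ⟨e1, e2⟩
  · exact h.goal_four hn hv hχ e
  · haveI : Fact (Nat.Prime 13) := ⟨by norm_num⟩
    exact h.goal_six hn hv hχ ord_three_13 (Or.inr ⟨rfl, rfl⟩) (by norm_num) (by norm_num) hf
      (by decide) ord_three_7 (by norm_num)
  · haveI : Fact (Nat.Prime 31) := ⟨by norm_num⟩
    exact h.goal_six hn hv hχ ord_five_31 (Or.inl (by norm_num)) (by norm_num) (by norm_num) hf
      (by decide) ord_five_7 (by norm_num)
  · haveI : Fact (Nat.Prime 307) := ⟨by norm_num⟩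
    exact h.goal_six hn hv hχ ord_17_307 (Or.inl (by norm_num)) (by norm_num) (by norm_num) hf
      (by decide) ord_17_7 (by norm_num)
  · exact h.goal_eighteen hn hv hχ e2 e1

end Cfsg.Agent.Trans
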