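import Cfsg.Agent.Lib.Block.OrdP2
import Cfsg.Agent.Lib.Char.More
import Cfsg.Agent.Lib.Char.Integral
import Cfsg.Agent.Lib.Char.Galois

/-!
# Multiplicities of irreducible constituents
-/

set_option autoImplicit false
set_option linter.unusedSectionVars false
set_option linter.style.haveILetI false

namespace Cfsg.Agent.Trans

open Cfsg.Agent.Block Cfsg.Agent.Char Cfsg.Agent.Tr Subgroup
open scoped ComplexConjugate

variable {G H : Type*} [Group G] [Finite G] [Group H] [Finite H]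

/-- The multiplicity of `ψ` in `θ`. -/
noncomputable def mu (θ : G → ℂ) (ψ : IrrCharacter G) : ℕ :=
  ⌊(@classInner G _ (Fintype.ofFinite G) θ ψ.1).re⌋₊

theorem mu_spec' [Fintype G] {θ : G → ℂ} {ψ : IrrCharacter G} {n : ℕ}
    (h : classInner θ ψ.1 = n) : mu θ ψ = n := by
  rw [mu, inner_congr_inst _ ‹_›, h]
  simp

theorem mu_spec [Fintype G] {θ : G → ℂ} (hθ : IsCharacter G θ) (ψ : IrrCharacter G) :
    classInner θ ψ.1 = mu θ ψ := by
  obtain ⟨n, hn⟩ := exists_nat_inner hθ (isChar_irr ψ)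
  rw [mu_spec' hn, hn]

theorem eq_sum_mu {θ : G → ℂ} (hθ : IsCharacter G θ) (g : G) :
    θ g = ∑ ψ : IrrCharacter G, (mu θ ψ : ℂ) * ψ.1 g := by
  haveI := Fintype.ofFinite G
  rw [apply_eq_sum_inner_mul (isClass_of_isChar hθ) g]
  simp only [mu_spec hθ]

theorem mu_eq_of_sum {θ : G → ℂ} (a : IrrCharacter G → ℕ)
    (h : ∀ g, θ g = ∑ ψ : IrrCharacter G, (a ψ : ℂ) * ψ.1 g) (ψ : IrrCharacter G) :
    mu θ ψ = a ψ := by
  haveI := Fintype.ofFinite G
  refine mu_spec' ?_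
  rw [← inner_sum_smul_irr (fun χ => (a χ : ℂ)) ψ]
  congr 1
  ext g
  simp [h]

theorem mu_irr [DecidableEq (IrrCharacter G)] (χ ψ : IrrCharacter G) :
    mu χ.1 ψ = if χ = ψ then 1 else 0 := by
  haveI := Fintype.ofFinite G
  refine mu_spec' ?_
  rw [inner_irr]
  split_ifs <;> simp

theorem mu_self (χ : IrrCharacter G) : mu χ.1 χ = 1 := by
  classical
  rw [mu_irr, if_pos rfl]

theorem sum_mu_deg {θ : G → ℂ} (hθ : IsCharacter G θ) {n : ℕ} (hn : θ 1 = n) :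
    ∑ ψ : IrrCharacter G, mu θ ψ * deg ψ = n := by
  have := eq_sum_mu hθ 1
  simp only [deg_spec, hn] at this
  exact_mod_cast this.symm

theorem mu_mul_deg_le {θ : G → ℂ} (hθ : IsCharacter G θ) {n : ℕ} (hn : θ 1 = n)
    (ψ : IrrCharacter G) : mu θ ψ * deg ψ ≤ n := by
  rw [← sum_mu_deg hθ hn]
  exact Finset.single_le_sum (f := fun ψ => mu θ ψ * deg ψ) (fun _ _ => Nat.zero_le _)
    (Finset.mem_univ ψ)

theorem deg_le_of_mu {θ : G → ℂ} (hθ : IsCharacter G θ) {n : ℕ} (hn : θ 1 = n)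
    {ψ : IrrCharacter G} (h : mu θ ψ ≠ 0) : deg ψ ≤ n :=
  (Nat.le_mul_of_pos_left _ (Nat.pos_of_ne_zero h)).trans (mu_mul_deg_le hθ hn ψ)

theorem inner_eq_sum_mu [Fintype G] {θ η : G → ℂ} (hθ : IsCharacter G θ) (hη : IsCharacter G η) :
    classInner θ η = ((∑ ψ : IrrCharacter G, mu θ ψ * mu η ψ : ℕ) : ℂ) := by
  rw [inner_eq_sum_irr (isClass_of_isChar hθ)]
  push_cast
  refine Finset.sum_congr rfl fun ψ _ => ?_
  rw [mu_spec hθ, ← conj_inner, mu_spec hη, map_natCast]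

theorem mu_comp {θ : G → ℂ} (hθ : IsCharacter G θ) (f : H →* G) (φ : IrrCharacter H) :
    mu (fun x => θ (f x)) φ = ∑ ψ : IrrCharacter G, mu θ ψ * mu (fun x => ψ.1 (f x)) φ := by
  refine mu_eq_of_sum (fun φ => ∑ ψ : IrrCharacter G, mu θ ψ * mu (fun x => ψ.1 (f x)) φ)
    (fun g => ?_) φ
  rw [eq_sum_mu hθ]
  push_cast
  simp only [Finset.sum_mul]
  rw [Finset.sum_comm]
  refine Finset.sum_congr rfl fun ψ _ => ?_
  rw [eq_sum_mu (isChar_comp (isChar_irr ψ) f) g, Finset.mul_sum]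
  simp only [mul_assoc]

theorem mu_mul_mu_le {θ : G → ℂ} (hθ : IsCharacter G θ) (f : H →* G) (φ : IrrCharacter H)
    (ψ : IrrCharacter G) :
    mu θ ψ * mu (fun x => ψ.1 (f x)) φ ≤ mu (fun x => θ (f x)) φ := by
  rw [mu_comp hθ]
  exact Finset.single_le_sum (f := fun ψ => mu θ ψ * mu (fun x => ψ.1 (f x)) φ)
    (fun _ _ => Nat.zero_le _) (Finset.mem_univ ψ)

theorem mu_le_of_mu_ne {θ : G → ℂ} (hθ : IsCharacter G θ) (f : H →* G) (φ : IrrCharacter H)
    {ψ : IrrCharacter G} (h : mu θ ψ ≠ 0) :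
    mu (fun x => ψ.1 (f x)) φ ≤ mu (fun x => θ (f x)) φ :=
  (Nat.le_mul_of_pos_left _ (Nat.pos_of_ne_zero h)).trans (mu_mul_mu_le hθ f φ ψ)

theorem exists_mu_comp {θ : G → ℂ} (hθ : IsCharacter G θ) (f : H →* G) {φ : IrrCharacter H}
    (h : mu (fun x => θ (f x)) φ ≠ 0) :
    ∃ ψ : IrrCharacter G, mu θ ψ ≠ 0 ∧ mu (fun x => ψ.1 (f x)) φ ≠ 0 := by
  rw [mu_comp hθ] at h
  obtain ⟨ψ, -, h⟩ := Finset.exists_ne_zero_of_sum_ne_zero h
  exact ⟨ψ, left_ne_zero_of_mul h, right_ne_zero_of_mul h⟩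

theorem exists_deg_le {θ : G → ℂ} (hθ : IsCharacter G θ) (f : H →* G) {φ : IrrCharacter H}
    (h : mu (fun x => θ (f x)) φ ≠ 0) : ∃ ψ : IrrCharacter G, mu θ ψ ≠ 0 ∧ deg φ ≤ deg ψ := by
  obtain ⟨ψ, h1, h2⟩ := exists_mu_comp hθ f h
  exact ⟨ψ, h1, deg_le_of_mu (isChar_comp (isChar_irr ψ) f) (by rw [map_one, deg_spec]) h2⟩

theorem mu_irrComp (e : H ≃* G) {θ : G → ℂ} (hθ : IsCharacter G θ) (ψ : IrrCharacter G) :
    mu (fun x => θ (e x)) (irrComp e ψ) = mu θ ψ := by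
  haveI := Fintype.ofFinite G
  haveI := Fintype.ofFinite H
  exact mu_spec' ((inner_comp_equiv e θ ψ.1).trans (mu_spec hθ ψ))

theorem apply_eq_of_forall_mu {θ : G → ℂ} (hθ : IsCharacter G θ) {g : G}
    (h : ∀ ψ : IrrCharacter G, mu θ ψ ≠ 0 → ψ.1 g = ψ.1 1) : θ g = θ 1 := by
  rw [eq_sum_mu hθ, eq_sum_mu hθ 1]
  refine Finset.sum_congr rfl fun ψ _ => ?_
  by_cases h0 : mu θ ψ = 0
  · simp [h0]
  · rw [h ψ h0]

theorem eq_irr_of_deg {θ : G → ℂ} (hθ : IsCharacter G θ) {ψ : IrrCharacter G}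
    (h : mu θ ψ ≠ 0) (hd : θ 1 = deg ψ) : θ = ψ.1 := by
  classical
  have h1 := sum_mu_deg hθ hd
  rw [← Finset.add_sum_erase _ _ (Finset.mem_univ ψ)] at h1
  have h2 : deg ψ ≤ mu θ ψ * deg ψ := Nat.le_mul_of_pos_left _ (Nat.pos_of_ne_zero h)
  have h3 : mu θ ψ * deg ψ = 1 * deg ψ := by omega
  have h4 : ∑ x ∈ Finset.univ.erase ψ, mu θ x * deg x = 0 := by omega
  ext g
  rw [eq_sum_mu hθ, ← Finset.add_sum_erase _ _ (Finset.mem_univ ψ),
    Nat.eq_of_mul_eq_mul_right (deg_pos ψ) h3, Finset.sum_eq_zero]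
  · simp
  · intro x hx
    have := (Finset.sum_eq_zero_iff.1 h4) x hx
    rw [(mul_eq_zero.1 this).resolve_right (deg_pos x).ne']
    simp

/-- The support of a character. -/
noncomputable def supp (θ : G → ℂ) : Finset (IrrCharacter G) :=
  Finset.univ.filter fun ψ => mu θ ψ ≠ 0

theorem mem_supp {θ : G → ℂ} {ψ : IrrCharacter G} : ψ ∈ supp θ ↔ mu θ ψ ≠ 0 := by
  simp [supp]

theorem card_supp_le {θ : G → ℂ} (hθ : IsCharacter G θ) {n : ℕ} (hn : θ 1 = n) :
    (supp θ).card ≤ n := by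
  rw [← sum_mu_deg hθ hn, Finset.card_eq_sum_ones]
  refine (Finset.sum_le_sum fun ψ hψ => ?_).trans
    (Finset.sum_le_sum_of_subset (Finset.subset_univ (supp θ)))
  exact Nat.mul_pos (Nat.pos_of_ne_zero (mem_supp.1 hψ)) (deg_pos ψ)

theorem eq_sum_supp {θ : G → ℂ} (hθ : IsCharacter G θ) (g : G) :
    θ g = ∑ ψ ∈ supp θ, (mu θ ψ : ℂ) * ψ.1 g := by
  rw [eq_sum_mu hθ]
  refine (Finset.sum_subset (Finset.subset_univ _) fun ψ _ h => ?_).symm
  rw [mem_supp, not_not] at h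
  simp [h]

theorem supp_nonempty {θ : G → ℂ} (hθ : IsCharacter G θ) (h : θ 1 ≠ 0) : (supp θ).Nonempty := by
  rw [Finset.nonempty_iff_ne_empty]
  intro e
  rw [eq_sum_supp hθ, e, Finset.sum_empty] at h
  exact h rfl

theorem apply_mul_of_central (φ : IrrCharacter G) {z : G} (hz : ∀ g, g * z = z * g) (g : G) :
    φ.1 (z * g) = φ.1 z / φ.1 1 * φ.1 g := by
  classical
  haveI := Fintype.ofFinite G
  have := sum_mul_apply_mul φ.2 (f := fun x => if x = z then 1 else 0) (fun x h => by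
    refine if_congr ⟨fun e => ?_, fun e => ?_⟩ rfl rfl
    · rw [mul_inv_eq_iff_eq_mul, ← hz] at e
      exact mul_left_cancel e
    · rw [e, hz, mul_inv_cancel_right]) g
  simpa using this

/-- The central character. -/
noncomputable def cch (φ : IrrCharacter G) (j : H →* G) (hj : ∀ x g, g * j x = j x * g) :
    IrrCharacter H :=
  ⟨_, isIrr_monoidHom
    { toFun := fun x => φ.1 (j x) / φ.1 1
      map_one' := by rw [map_one, div_self (irr_apply_one_ne_zero φ)]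
      map_mul' := fun x y => by rw [map_mul, apply_mul_of_central φ (hj x), mul_div_assoc] }⟩

section
variable (φ : IrrCharacter G) (j : H →* G) (hj : ∀ x g, g * j x = j x * g)

theorem cch_apply (x : H) : (cch φ j hj).1 x = φ.1 (j x) / φ.1 1 := rfl

theorem cch_mul (x : H) (g : G) : φ.1 (j x * g) = (cch φ j hj).1 x * φ.1 g :=
  apply_mul_of_central φ (hj x) g

theorem cch_one : (cch φ j hj).1 1 = 1 := by
  rw [cch_apply, map_one, div_self (irr_apply_one_ne_zero φ)]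

theorem mu_cch [DecidableEq (IrrCharacter H)] (l : IrrCharacter H) :
    mu (fun x => φ.1 (j x)) l = if l = cch φ j hj then deg φ else 0 := by
  refine mu_eq_of_sum (fun l => if l = cch φ j hj then deg φ else 0) (fun g => ?_) l
  rw [Finset.sum_eq_single (cch φ j hj) (fun b _ hb => by simp [hb]) (by simp), if_pos rfl,
    ← deg_spec, mul_comm, ← cch_mul, mul_one]

theorem deg_le_mu_cch {θ : G → ℂ} (hθ : IsCharacter G θ) (h : mu θ φ ≠ 0) :
    deg φ ≤ mu (fun x => θ (j x)) (cch φ j hj) := by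
  classical
  have := mu_le_of_mu_ne hθ j (cch φ j hj) h
  rwa [mu_cch φ j hj, if_pos rfl] at this

end

theorem norm_irr_of_one {l : IrrCharacter G} (h : l.1 1 = 1) (g : G) : ‖l.1 g‖ = 1 := by
  obtain ⟨f, hf⟩ := exists_unitsHom_of_apply_one (isChar_irr l) h
  refine norm_eq_one_of_pow_eq_one (Nat.card_pos (α := G)).ne' ?_
  rw [hf, ← Units.val_pow_eq_pow_val, ← map_pow, pow_card_eq_one', map_one, Units.val_one]

theorem deg_eq_one_iff {l : IrrCharacter G} : deg l = 1 ↔ l.1 1 = 1 := by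
  rw [deg_spec, Nat.cast_eq_one]

theorem apply_comm_of_deg {l : IrrCharacter G} (h : deg l ≤ 1) (a b : G) :
    l.1 (a * b * a⁻¹ * b⁻¹) = l.1 1 := by
  have h1 : l.1 1 = 1 := deg_eq_one_iff.1 (le_antisymm h (deg_pos l))
  refine apply_commutator_of_norm_eq (isChar_irr l) ?_ a
  rw [norm_irr_of_one h1, norm_irr_of_one h1]

/-- A faithful character all of whose constituents kill commutators. -/
theorem comm_of_forall {χ : G → ℂ} (hχ : IsCharacter G χ) (hf : ∀ g, χ g = χ 1 → g = 1) {a b : G}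
    (h : ∀ ψ : IrrCharacter G, mu χ ψ ≠ 0 → ψ.1 (a * b * a⁻¹ * b⁻¹) = ψ.1 1) : a * b = b * a := by
  have := hf _ (apply_eq_of_forall_mu hχ h)
  rwa [mul_inv_eq_one, mul_inv_eq_iff_eq_mul] at this

theorem comm_of_deg {χ : G → ℂ} (hχ : IsCharacter G χ) (hf : ∀ g, χ g = χ 1 → g = 1)
    (h : ∀ ψ : IrrCharacter G, mu χ ψ ≠ 0 → deg ψ ≤ 1) (a b : G) : a * b = b * a :=
  comm_of_forall hχ hf fun ψ hψ => apply_comm_of_deg (h ψ hψ) a b

theorem card_dvd_card_erase (hG : ∀ a b : G, a * b = b * a) (Γ : Subgroup (MulAut G))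
    (hΓ : ∀ α ∈ Γ, ∀ x, α x = x → x ≠ 1 → α = 1) {θ : G → ℂ} (hθ : IsCharacter G θ)
    (hinv : ∀ α ∈ Γ, ∀ x, θ (α x) = θ x) [DecidableEq (IrrCharacter G)] :
    Nat.card Γ ∣ ((supp θ).erase (irrOne G)).card := by
  let S := {l : IrrCharacter G // l ∈ (supp θ).erase (irrOne G)}
  letI : MulAction Γ S :=
    { smul := fun α l => ⟨irrComp α.1⁻¹ l.1, Finset.mem_erase.2
        ⟨fun e => (Finset.mem_erase.1 l.2).1 ((irrComp α.1⁻¹).injective e), by
          have := mu_irrComp α.1⁻¹ hθ l.1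
          rw [funext (hinv _ (Γ.inv_mem α.2))] at this
          rw [mem_supp, this]
          exact mem_supp.1 (Finset.mem_erase.1 l.2).2⟩⟩
      one_smul := fun l => rfl
      mul_smul := fun α β l => rfl }
  have hfree : ∀ l : S, MulAction.stabilizer Γ l = ⊥ := fun l => by
    rw [eq_bot_iff]
    intro α hα
    have e : ∀ x, l.1.1 (α.1⁻¹ x) = l.1.1 x := fun x =>
      congrFun (congrArg (fun s : S => s.1.1) hα) x
    by_contra hne
    have h1 := apply_one_eq_one_of_comm l.1.2 hG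
    let f : G →* G :=
      { toFun := fun x => α.1⁻¹ x * x⁻¹
        map_one' := by simp
        map_mul' := fun x y => by
          rw [map_mul, mul_inv_rev, hG y⁻¹, mul_assoc, mul_assoc, ← mul_assoc (α.1⁻¹ y),
            hG (α.1⁻¹ y), mul_assoc] }
    have hi : Function.Injective f := (injective_iff_map_eq_one f).2 fun x hx => by
      by_contra hx1
      exact hne (mem_bot.2 (Subtype.ext (inv_eq_one.1
        (hΓ _ (Γ.inv_mem α.2) x (mul_inv_eq_one.1 hx) hx1))))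
    refine (Finset.mem_erase.1 l.2).1 (Subtype.ext (funext fun y => ?_))
    obtain ⟨x, rfl⟩ := Finite.surjective_of_injective hi y
    change l.1.1 (α.1⁻¹ x * x⁻¹) = 1
    rw [map_mul_of_apply_one (isChar_irr _) h1, e, ← map_mul_of_apply_one (isChar_irr _) h1,
      mul_inv_cancel, h1]
  have := Nat.card_congr (MulAction.selfEquivOrbitsQuotientProd hfree)
  rw [Nat.card_prod, Nat.card_eq_fintype_card, Fintype.card_coe] at this
  exact this ▸ dvd_mul_left _ _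

end Cfsg.Agent.Trans
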