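import Cfsg.Agent.Lib.Trans.Lin
import Cfsg.Agent.Lib.Trans.Lift

/-!
# Normal Sylow subgroups of linear groups of small degree
-/

set_option autoImplicit false
set_option linter.unusedSectionVars false
set_option linter.style.haveILetI false

namespace Cfsg.Agent.Trans

open Cfsg.Agent.Block Cfsg.Agent.Char Cfsg.Agent.Tr Subgroup
open scoped ComplexConjugate

variable {G : Type*} [Group G] [Finite G]

theorem card_dvd_card_filter (hG : ∀ a b : G, a * b = b * a) (Γ : Subgroup (MulAut G))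
    (hΓ : ∀ α ∈ Γ, ∀ x, α x = x → x ≠ 1 → α = 1) {θ : G → ℂ} (hθ : IsCharacter G θ)
    (hinv : ∀ α ∈ Γ, ∀ x, θ (α x) = θ x) [DecidableEq (IrrCharacter G)] (k : ℕ) :
    Nat.card Γ ∣ ((Finset.univ.filter fun l => k ≤ mu θ l).erase (irrOne G)).card := by
  let η : G → ℂ := ∑ l : IrrCharacter G, ((if k ≤ mu θ l then 1 else 0 : ℕ) : ℂ) • l.1
  have hη : IsCharacter G η := isChar_sum_nat_smul_irr _
  have h1 : ∀ l, mu η l = if k ≤ mu θ l then 1 else 0 :=
    mu_eq_of_sum _ fun g => by simp only [η, Finset.sum_apply, Pi.smul_apply, smul_eq_mul]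
  have := card_dvd_card_erase hG Γ hΓ hη fun α hα x => by
    rw [eq_sum_mu hη, eq_sum_mu hη x, ← Equiv.sum_comp (irrComp α) fun l => (mu η l : ℂ) * l.1 x]
    refine Finset.sum_congr rfl fun l _ => ?_
    have := mu_irrComp α hθ l
    rw [funext (hinv _ hα)] at this
    rw [h1, h1, this]
    rfl
  convert this using 3
  ext l
  simp [mem_supp, h1]

theorem card_mul_mu_le (hG : ∀ a b : G, a * b = b * a) (Γ : Subgroup (MulAut G))
    (hΓ : ∀ α ∈ Γ, ∀ x, α x = x → x ≠ 1 → α = 1) {θ : G → ℂ} (hθ : IsCharacter G θ)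
    (hinv : ∀ α ∈ Γ, ∀ x, θ (α x) = θ x) {n : ℕ} (hn : θ 1 = n) {l : IrrCharacter G}
    (hl : l ≠ irrOne G) : Nat.card Γ * mu θ l + mu θ (irrOne G) ≤ n := by
  classical
  have h1 := Nat.le_of_dvd (Finset.card_pos.2 ⟨l, by simp [hl]⟩)
    (card_dvd_card_filter hG Γ hΓ hθ hinv (mu θ l))
  have h2 := sum_mu_deg hθ hn
  simp only [deg_eq_one_iff.2 (apply_one_eq_one_of_comm (Subtype.prop _) hG), mul_one] at h2
  rw [← h2, ← Finset.add_sum_erase _ _ (Finset.mem_univ (irrOne G)), add_comm]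
  refine Nat.add_le_add_left ((Nat.mul_le_mul_right _ h1).trans ?_) _
  rw [← smul_eq_mul, ← Finset.sum_const]
  exact (Finset.sum_le_sum fun a ha => (Finset.mem_filter.1 (Finset.mem_of_mem_erase ha)).2).trans
    (Finset.sum_le_sum_of_subset (Finset.erase_subset_erase _ (Finset.subset_univ _)))

theorem pow_eq_self_iff {r : ℕ} [Fact r.Prime] {x : G} (hx : x ^ r = 1) (h1 : x ≠ 1) (p k : ℕ) :
    x ^ p ^ k = x ↔ orderOf (p : ZMod r) ∣ k := by
  rw [orderOf_dvd_iff_pow_eq_one, ← Nat.cast_pow, ← Nat.cast_one (R := ZMod r),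
    ZMod.natCast_eq_natCast_iff, ← orderOf_eq_prime hx h1, ← pow_eq_pow_iff_modEq, pow_one]

namespace FC
variable {p n : ℕ} [hp : Fact p.Prime] {χ : G → ℂ} (h : FC p χ n)
include h

theorem exists_aut {r : ℕ} [Fact r.Prime] (hG : ∀ a b : G, a * b = b * a) (hr : ∀ a : G, a ^ r = 1)
    [Nontrivial G] : ∃ Γ : Subgroup (MulAut G), Nat.card Γ = orderOf (p : ZMod r) ∧
      (∀ α ∈ Γ, ∀ x, α x = x → x ≠ 1 → α = 1) ∧ ∀ α ∈ Γ, ∀ x, χ (α x) = χ x := by
  let f : G →* G :=
    { toFun := fun x => x ^ p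
      map_one' := one_pow p
      map_mul' := fun x y => Commute.mul_pow (hG x y) p }
  let α : MulAut G := MulEquiv.ofBijective f
    (powCoprime ((Nat.Prime.coprime_iff_not_dvd hp.out).2 h.cop).symm).bijective
  have hα : ∀ (k : ℕ) x, (α ^ k) x = x ^ p ^ k := fun k => by
    induction k with
    | zero => simp
    | succ k ih => intro x; rw [pow_succ', MulAut.mul_apply, ih, pow_succ, pow_mul]; rfl
  have h1 : ∀ k : ℕ, α ^ k = 1 ↔ orderOf (p : ZMod r) ∣ k := fun k => by
    obtain ⟨x, hx⟩ := exists_ne (1 : G)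
    refine ⟨fun e => (pow_eq_self_iff (hr x) hx p k).1 (by rw [← hα, e]; rfl), fun e => ?_⟩
    ext y
    by_cases hy : y = 1
    · simp [hy]
    · rw [hα, (pow_eq_self_iff (hr y) hy p k).2 e]; rfl
  refine ⟨zpowers α, ?_, fun β hβ x e hx => ?_, fun β hβ x => ?_⟩
  · rw [Nat.card_zpowers]
    exact Nat.dvd_antisymm (orderOf_dvd_of_pow_eq_one ((h1 _).2 dvd_rfl))
      ((h1 _).1 (pow_orderOf_eq_one α))
  · obtain ⟨k, rfl⟩ := mem_powers_iff_mem_zpowers.2 hβ
    exact (h1 k).2 ((pow_eq_self_iff (hr x) hx p k).1 ((hα k x).symm.trans e))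
  · obtain ⟨k, rfl⟩ := mem_powers_iff_mem_zpowers.2 hβ
    rw [show (fun x => α ^ x) k = α ^ k from rfl, hα]
    induction k with
    | zero => simp
    | succ k ih => rw [pow_succ, pow_mul, h.frob, ih (npow_mem_zpowers α k)]

theorem erase_ne_zero [Nontrivial G] [DecidableEq (IrrCharacter G)] :
    ((supp χ).erase (irrOne G)).card ≠ 0 := fun e => by
  obtain ⟨x, hx⟩ := exists_ne (1 : G)
  refine hx (h.faith x (apply_eq_of_forall_mu h.char fun l hl => ?_))
  by_contra h1
  exact Finset.notMem_empty l (Finset.card_eq_zero.1 e ▸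
    Finset.mem_erase.2 ⟨fun e => h1 (e ▸ rfl), mem_supp.2 hl⟩)

theorem order_dvd {r : ℕ} [Fact r.Prime] (hG : ∀ a b : G, a * b = b * a) (hr : ∀ a : G, a ^ r = 1)
    [Nontrivial G] [DecidableEq (IrrCharacter G)] :
    orderOf (p : ZMod r) ∣ ((supp χ).erase (irrOne G)).card := by
  obtain ⟨Γ, h1, h2, h3⟩ := h.exists_aut hG hr
  exact h1 ▸ card_dvd_card_erase hG Γ h2 h.char h3

theorem order_mul_le {r : ℕ} [Fact r.Prime] (hG : ∀ a b : G, a * b = b * a)
    (hr : ∀ a : G, a ^ r = 1) [Nontrivial G] {l : IrrCharacter G} (hl : l ≠ irrOne G) :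
    orderOf (p : ZMod r) * mu χ l + mu χ (irrOne G) ≤ n := by
  obtain ⟨Γ, h1, h2, h3⟩ := h.exists_aut hG hr
  exact h1 ▸ card_mul_mu_le hG Γ h2 h.char h3 h.one hl

theorem mu_le_one {r : ℕ} [Fact r.Prime] (hG : ∀ a b : G, a * b = b * a)
    (hr : ∀ a : G, a ^ r = 1) [Nontrivial G] (hn : orderOf (p : ZMod r) = n) (h0 : 0 < n)
    (l : IrrCharacter G) : mu χ l ≤ 1 := by
  classical
  by_cases hl : l = irrOne G
  · obtain ⟨l', hl'⟩ := Finset.card_pos.1 (Nat.pos_of_ne_zero h.erase_ne_zero)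
    have h1 := h.order_mul_le hG hr (Finset.ne_of_mem_erase hl')
    have h2 := Nat.pos_of_ne_zero (mem_supp.1 (Finset.mem_of_mem_erase hl'))
    rw [hl]
    nlinarith
  · have h1 := h.order_mul_le hG hr hl
    nlinarith

omit h in
theorem zpowers_facts {r : ℕ} [Fact r.Prime] {x : G} (hx : orderOf x = r) :
    (∀ a b : zpowers x, a * b = b * a) ∧ (∀ a : zpowers x, a ^ r = 1) ∧ Nontrivial (zpowers x) :=
  ⟨fun a b => mul_comm' a b, fun a => by rw [← hx, ← Nat.card_zpowers, pow_card_eq_one'],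
    Finite.one_lt_card_iff_nontrivial.1 (by
      rw [Nat.card_zpowers, hx]; exact (Fact.out : r.Prime).one_lt)⟩

theorem deg_le_of_central {x : G} {k : ℕ} (hx : ∀ g, g * x = x * g)
    (hk : ∀ l, mu (fun y : zpowers x => χ y) l ≤ k) (φ : IrrCharacter G) (hφ : mu χ φ ≠ 0) :
    deg φ ≤ k :=
  (deg_le_mu_cch φ (zpowers x).subtype (fun y g => by
    obtain ⟨_, m, rfl⟩ := y
    exact Commute.zpow_right (hx g) m) h.char hφ).trans (hk _)

theorem cent_comm {r : ℕ} [Fact r.Prime] (hn : orderOf (p : ZMod r) = n) (h0 : 0 < n) {x : G}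
    (hx : orderOf x = r) {a b : G} (ha : a ∈ centralizer ({x} : Set G))
    (hb : b ∈ centralizer ({x} : Set G)) : a * b = b * a := by
  have h' := h.res (centralizer ({x} : Set G))
  let x' : centralizer ({x} : Set G) := ⟨x, mem_centralizer_singleton_iff.2 rfl⟩
  obtain ⟨h1, h2, h3⟩ := zpowers_facts (x := x') (r := r) (by rw [← orderOf_coe, hx])
  exact congrArg Subtype.val (comm_of_deg h'.char h'.faith (h'.deg_le_of_central (x := x')
    (fun g => Subtype.ext (mem_centralizer_singleton_iff.1 g.2))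
    ((h'.res _).mu_le_one h1 h2 hn h0)) ⟨a, ha⟩ ⟨b, hb⟩)

omit h in
theorem exists_pow_prime {r : ℕ} [hr : Fact r.Prime] {x : G} (h1 : x ≠ 1)
    (hx : ∃ k, orderOf x = r ^ k) : ∃ m : ℕ, orderOf (x ^ m) = r := by
  have := dvd_orderOf_of_ne_one h1 hx
  exact ⟨_, orderOf_pow_orderOf_div (orderOf_pos x).ne' this⟩

theorem tis {r : ℕ} [Fact r.Prime] (hn : orderOf (p : ZMod r) = n) (h0 : 0 < n) {P : Subgroup G}
    (hP : SylowIn r P ⊤) : TIS r P := by
  have hc : ∀ {x a : G} (m : ℕ), a * x = x * a → a ∈ centralizer ({x ^ m} : Set G) :=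
    fun m e => mem_centralizer_singleton_iff.2 (Commute.pow_right e m)
  have hab : P ≤ centralizer (P : Set G) := by
    rcases P.bot_or_nontrivial with e | e
    · simp [e]
    haveI := hP.isPGroup.center_nontrivial
    obtain ⟨z, hz⟩ := exists_ne (1 : center P)
    obtain ⟨m, hm⟩ := exists_pow_prime (x := (z.1 : G)) (by simpa using hz)
      (exists_orderOf_of_mem hP.isPGroup z.1.2)
    have : ∀ a ∈ P, a ∈ centralizer ({(z.1 : G) ^ m} : Set G) := fun a ha =>
      hc m (congrArg Subtype.val (mem_center_iff.1 z.2 ⟨a, ha⟩))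
    exact fun a ha b hb => h.cent_comm hn h0 hm (this b hb) (this a ha)
  refine ⟨hP, hab, fun x hx h1 c hcx a ha => ?_⟩
  obtain ⟨m, hm⟩ := exists_pow_prime h1 (exists_orderOf_of_mem hP.isPGroup hx)
  exact h.cent_comm hn h0 hm (hc m (hab hx a ha)) (hc m (mem_centralizer_singleton_iff.1 hcx))

end FC

theorem normal_of_core {r : ℕ} [Fact r.Prime] {P : Subgroup G} (hP : SylowIn r P ⊤)
    (core : SylowIn r (P.subgroupOf (normalClosure (P : Set G))) ⊤ →
      Nat.card (P.subgroupOf (normalClosure (P : Set G))) = Nat.card P →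
      normalClosure (P.subgroupOf (normalClosure (P : Set G)) :
        Set (normalClosure (P : Set G))) = ⊤ →
      ∀ a b : normalClosure (P : Set G), a * b = b * a) : P.Normal := by
  set K := normalClosure (P : Set G)
  have hPK : P ≤ K := subset_normalClosure
  have hS := hP.mono hPK le_top
  have hc := core hS.subgroupOf_top (Nat.card_congr (subgroupOfEquivOfLe hPK).toEquiv) (by
    have : K ≤ (normalClosure (P.subgroupOf K : Set K)).map K.subtype := by
      refine (closure_le _).2 fun y hy => ?_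
      obtain ⟨x, hx, hxy⟩ := Group.mem_conjugatesOfSet_iff.1 hy
      obtain ⟨g, rfl⟩ := isConj_iff.1 hxy
      obtain ⟨k, hk⟩ := isPGroup_iff_forall_mem.1 hP.isPGroup x hx
      obtain ⟨c, hc, h1⟩ := hS.exists_conj_mem (y := g * x * g⁻¹)
        (Normal.conj_mem inferInstance x (hPK hx) g) (k := k) (by rw [conj_pow, hk]; simp)
      refine ⟨_, Normal.conj_mem inferInstance (⟨_, hPK h1⟩ : K) (subset_normalClosure h1)
        (⟨c, hc⟩ : K)⁻¹, ?_⟩
      simp [mul_assoc]
    rw [eq_top_iff]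
    intro y _
    obtain ⟨z, hz, e⟩ := this y.2
    rwa [← Subtype.ext e])
  refine ⟨fun x hx g => mem_of_mem_normalizer hP (centralizer_le_normalizer _ fun a ha => ?_) ?_⟩
  · exact congrArg Subtype.val (hc ⟨a, hPK ha⟩ ⟨_, Normal.conj_mem inferInstance x (hPK hx) g⟩)
  · rw [Tr.orderOf_conj]
    exact exists_orderOf_of_mem hP.isPGroup hx

namespace FC
variable {p n : ℕ} [hp : Fact p.Prime] {χ : G → ℂ} (h : FC p χ n)
include h

theorem card_supp_res_le {ξ : IrrCharacter G} (hξ : mu χ ξ ≠ 0) (P : Subgroup G) :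
    (supp fun x : P => ξ.1 x).card ≤ n :=
  (card_supp_le (isChar_restrict (isChar_irr ξ) P) (deg_spec ξ)).trans
    (deg_le_of_mu h.char h.one hξ)

theorem ppd_core {r : ℕ} [hr : Fact r.Prime] (hn : orderOf (p : ZMod r) = n) (h0 : 0 < n)
    {P : Subgroup G} (hP : SylowIn r P ⊤) (hG : normalClosure (P : Set G) = ⊤)
    (hc : r ^ 2 ≤ Nat.card P ∨ Nat.card P = r ∧ ∀ ξ, mu χ ξ ≠ 0 → 2 * deg ξ + 1 < r) (a b : G) :
    a * b = b * a := by
  classical
  have ht := h.tis hn h0 hP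
  have h2 := hr.out.two_le
  haveI : Nontrivial P := Finite.one_lt_card_iff_nontrivial.1 (by
    rcases hc with hc | hc
    · nlinarith
    · omega)
  refine comm_of_forall h.char h.faith fun ξ hξ => ?_
  rcases hc with hc | ⟨hc, hd⟩
  · have h1 : n < r := by
      have := Nat.le_of_dvd (by omega) (hn ▸ ZMod.orderOf_dvd_card_sub_one (a := (p : ZMod r))
        fun e => by rw [e, orderOf_zero] at hn; omega)
      omega
    have h3 : ee P ≤ n := (Nat.le_of_dvd (Nat.pos_of_ne_zero (h.res P).erase_ne_zero)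
      (ht.ee_dvd h.char)).trans (Finset.card_erase_le.trans
        (card_supp_le (h.res P).char (h.res P).one))
    have h4 := h.card_supp_res_le hξ P
    exact ht.comm_of_sq hG ξ (by nlinarith) (by nlinarith) a b
  · refine apply_comm_of_deg (deg_le_one_of_prime hP hc hG ξ (fun l => ?_) (hd ξ hξ)) a b
    exact (mu_le_of_mu_ne h.char P.subtype l hξ).trans ((h.res P).mu_le_one ht.comm
      (fun a => by rw [← hc, pow_card_eq_one']) hn h0 l)

theorem ppd_normal {r : ℕ} [hr : Fact r.Prime] (hn : orderOf (p : ZMod r) = n) (h0 : 0 < n)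
    {P : Subgroup G} (hP : SylowIn r P ⊤)
    (hc : r ^ 2 ∣ Nat.card G ∨ ∀ ξ, mu χ ξ ≠ 0 → 2 * deg ξ + 1 < r) : P.Normal := by
  have hk := hP.card_eq_pow
  rw [card_top] at hk
  rcases Nat.lt_or_ge ((Nat.card G).factorization r) 2 with h2 | h2
  · have hc := hc.resolve_left fun e =>
      h2.not_ge ((hr.out.pow_dvd_iff_le_factorization Nat.card_pos.ne').1 e)
    rcases Nat.eq_zero_or_pos ((Nat.card G).factorization r) with e | e
    · rw [e, pow_zero, card_eq_one] at hk
      rw [hk]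
      infer_instance
    rw [show (Nat.card G).factorization r = 1 by omega, pow_one] at hk
    refine normal_of_core hP fun h1 h3 h4 => (h.res _).ppd_core hn h0 h1 h4
      (Or.inr ⟨h3.trans hk, fun φ hφ => ?_⟩)
    obtain ⟨ξ, e1, e2⟩ := exists_deg_le h.char (Subgroup.subtype _) hφ
    have := hc ξ e1
    omega
  · exact normal_of_core hP fun h1 h3 h4 => (h.res _).ppd_core hn h0 h1 h4
      (Or.inl (by rw [h3, hk]; exact Nat.pow_le_pow_right hr.out.pos h2))

theorem dag_core {r : ℕ} [hr : Fact r.Prime] (hn : n ≤ 6) (ho : orderOf (p : ZMod r) = 3)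
    (hr' : 16 ≤ r ∨ r = 13 ∧ p = 3) {P : Subgroup G} (hP : SylowIn r P ⊤) (hc : Nat.card P = r)
    (hG : normalClosure (P : Set G) = ⊤) (a b : G) : a * b = b * a := by
  classical
  have ht := tis_of_prime hP hc
  haveI : Nontrivial P := Finite.one_lt_card_iff_nontrivial.1 (by omega)
  have h1 := (h.res P).order_dvd (r := r) ht.comm (fun a => by rw [← hc, pow_card_eq_one'])
  have h2 := ht.ee_dvd h.char
  have h3 := (h.res P).erase_ne_zero
  have h4 := (Finset.card_erase_le (a := irrOne P)).trans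
    (card_supp_le (h.res P).char (h.res P).one)
  have h5 : ee P ∣ 6 := by
    rw [ho] at h1
    obtain ⟨k, hk⟩ := h1
    rw [hk] at h2 h3 h4
    exact h2.trans (by
      obtain rfl | rfl : k = 1 ∨ k = 2 := by omega
      all_goals norm_num)
  have h6 : p = 3 → ¬ 3 ∣ ee P := fun e e' => h.cop (e ▸ e'.trans (ee_dvd_card P))
  refine comm_of_forall h.char h.faith fun ξ hξ => ?_
  have h7 := h.card_supp_res_le hξ P
  by_cases he : ee P = 6
  · by_cases h1 : ξ = irrOne G
    · rw [h1]; rfl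
    have h8 := Nat.le_of_dvd (Nat.pos_of_ne_zero fun e => h1 (eq_one_of_supp hG e))
      (ht.ee_dvd (isChar_irr ξ))
    have h9 := deg_le_of_mu h.char h.one hξ
    refine apply_comm_of_deg (deg_le_one_of_prime hP hc hG ξ (fun l => ?_) (by omega)) a b
    have h10 := sum_mu_deg (isChar_restrict (isChar_irr ξ) P) (deg_spec ξ)
    simp only [deg_eq_one_iff.2 (apply_one_eq_one_of_comm (Subtype.prop _) ht.comm),
      mul_one] at h10
    by_contra hcon
    have h11 : (supp fun x : P => ξ.1 x).card < deg ξ := by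
      rw [← h10, Finset.card_eq_sum_ones]
      refine lt_of_lt_of_le (Finset.sum_lt_sum (fun l hl => Nat.pos_of_ne_zero (mem_supp.1 hl))
        ⟨l, mem_supp.2 (by omega), by omega⟩) (Finset.sum_le_sum_of_subset (Finset.subset_univ _))
    have := Finset.card_erase_le (s := supp fun x : P => ξ.1 x) (a := irrOne P)
    omega
  · refine ht.comm_of_sq hG ξ ?_ (by omega) a b
    have := Nat.le_of_dvd (by norm_num) h5
    rw [hc]
    generalize ee P = e at *
    interval_cases e <;> omega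

theorem dag_normal {r : ℕ} [hr : Fact r.Prime] (hn : n ≤ 6) (ho : orderOf (p : ZMod r) = 3)
    (hr' : 16 ≤ r ∨ r = 13 ∧ p = 3) {P : Subgroup G} (hP : SylowIn r P ⊤) (hc : Nat.card P = r) :
    P.Normal :=
  normal_of_core hP fun h1 h3 h4 => (h.res _).dag_core hn ho hr' h1 (h3.trans hc) h4

theorem lemmaS {r : ℕ} [hr : Fact r.Prime] (hn : n < r) {P : Subgroup G} (hP : SylowIn r P ⊤)
    (hc : Nat.card P = r) (he : normalizer (P : Set G) ≤ centralizer (P : Set G)) :
    P ≤ center G ∨ IsIrrCharacter G χ ∧ n + 1 = r := by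
  have ht := tis_of_prime hP hc
  have h1 : ee P = 1 := relIndex_eq_one.2 he
  by_cases hall : ∀ ξ, mu χ ξ ≠ 0 → (supp fun x : P => ξ.1 x).card ≤ 1
  · exact Or.inl fun x hx => mem_center_iff.2 fun g => comm_of_forall h.char h.faith fun ξ hξ =>
      apply_commutator_of_norm_eq (isChar_irr ξ) (norm_eq_of_card_supp ht.comm
        (isChar_restrict (isChar_irr ξ) P) (hall ξ hξ) ⟨x, hx⟩) g
  push Not at hall
  obtain ⟨ξ, hξ, h2⟩ := hall
  have h3 := ht.variance ξ
  have h4 := card_supp_le (isChar_restrict (isChar_irr ξ) P) (deg_spec ξ)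
  have h5 := deg_le_of_mu h.char h.one hξ
  rw [h1, hc] at h3
  have h6 : r ≤ (supp fun x : P => ξ.1 x).card + 1 := by
    by_contra hcon
    obtain ⟨s, hs⟩ := Nat.exists_eq_add_of_le (Nat.succ_le_of_lt (not_le.1 hcon))
    obtain ⟨t, ht⟩ := Nat.exists_eq_add_of_le (Nat.succ_le_of_lt h2)
    rw [ht] at hs h3
    subst hs
    nlinarith
  refine Or.inr ⟨?_, by omega⟩
  rw [eq_irr_of_deg h.char hξ (by rw [h.one]; congr 1; omega)]
  exact ξ.2

theorem lemmaS' {r : ℕ} [hr : Fact r.Prime] (hn : n < r) {x : G} (hx : orderOf x = r)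
    {Q : Subgroup G} (hQ : ¬ r ∣ Nat.card Q) (hxQ : x ∈ normalizer (Q : Set G)) :
    x ∈ centralizer (Q : Set G) ∨
      (IsIrrCharacter (Q ⊔ zpowers x : Subgroup G) fun y => χ y) ∧ n + 1 = r := by
  have hle : zpowers x ≤ normalizer (Q : Set G) := zpowers_le.2 hxQ
  have hd : ∀ y ∈ Q, y ∈ zpowers x → y = 1 := fun y h1 h2 => by
    refine eq_one_of_pow_of_not_dvd (p := r) (k := 1) ?_ fun e => hQ (e.trans
      (orderOf_dvd_natCard _ h1))
    rw [pow_one, ← hx, ← Nat.card_zpowers]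
    exact congrArg Subtype.val (pow_card_eq_one' (x := (⟨y, h2⟩ : zpowers x)))
  have hS : SylowIn r (zpowers x) (Q ⊔ zpowers x) := by
    refine ⟨le_sup_right, isPGroup_zpowers_of_orderOf_eq hx, fun e => hQ (e.trans ?_)⟩
    have h2 := card_mul_relIndex (le_sup_right : zpowers x ≤ Q ⊔ zpowers x)
    have h3 : Nat.card (Q ⊔ zpowers x : Subgroup G) = Nat.card (zpowers x) * Nat.card Q := by
      rw [← Nat.card_prod]
      refine (Nat.card_congr (Equiv.ofBijective (fun t : zpowers x × Q =>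
        (⟨t.2 * t.1, mul_mem (mem_sup_left t.2.2) (mem_sup_right t.1.2)⟩ :
          (Q ⊔ zpowers x : Subgroup G))) ⟨?_, ?_⟩)).symm
      · rintro ⟨a, b⟩ ⟨c, d⟩ e
        have e1 : (b : G) * a = d * c := congrArg Subtype.val e
        have e2 : (d : G)⁻¹ * b = c * (a : G)⁻¹ := by
          rw [inv_mul_eq_iff_eq_mul, ← mul_assoc, ← e1, mul_inv_cancel_right]
        have e3 := hd _ (mul_mem (inv_mem d.2) b.2) (e2 ▸ mul_mem c.2 (inv_mem a.2))
        rw [Subtype.ext (inv_mul_eq_one.1 e3), Subtype.ext (mul_inv_eq_one.1 (e2.symm.trans e3))]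
      · rintro ⟨y, hy⟩
        obtain ⟨b, hb, a, ha, rfl⟩ := (mem_sup_of_le_normalizer' hle).1 hy
        exact ⟨(⟨a, ha⟩, ⟨b, hb⟩), rfl⟩
    rw [h3] at h2
    rw [Nat.eq_of_mul_eq_mul_left Nat.card_pos h2]
  refine ((h.res (Q ⊔ zpowers x)).lemmaS hn hS.subgroupOf_top
    ((Nat.card_congr (subgroupOfEquivOfLe hS.le).toEquiv).trans
      ((Nat.card_zpowers x).trans hx)) ?_).imp_left fun hc y hy => ?_
  · rintro ⟨g, hg⟩ hN ⟨y, hy'⟩ hy
    obtain ⟨b, hb, a, ha, rfl⟩ := (mem_sup_of_le_normalizer' hle).1 hg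
    have hay : a * y = y * a := congrArg Subtype.val
      (mul_comm' (⟨a, ha⟩ : zpowers x) ⟨y, hy⟩)
    have h1 : b * a * y * (b * a)⁻¹ ∈ zpowers x :=
      conj_mem_of_mem_normalizer (a := ⟨y, hy'⟩) hN hy
    have h2 : b * a * y * (b * a)⁻¹ = b * y * b⁻¹ := by
      rw [mul_assoc b, hay]; group
    have h3 := hd (b * (y * b⁻¹ * y⁻¹)) (mul_mem hb (conj_mem_of_mem_normalizer (hle hy)
      (inv_mem hb))) (by
        have := mul_mem (h2 ▸ h1) (inv_mem (show y ∈ zpowers x from hy))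
        simpa only [mul_assoc] using this)
    refine Subtype.ext ?_
    change y * (b * a) = b * a * y
    rw [mul_assoc, hay, ← mul_assoc, ← mul_assoc]
    congr 1
    calc y * b = b * (y * b⁻¹ * y⁻¹) * (y * b) := by rw [h3, one_mul]
      _ = b * y := by group
  · exact congrArg Subtype.val (mem_center_iff.1 (hc (show (⟨x, mem_sup_right (mem_zpowers x)⟩ :
      (Q ⊔ zpowers x : Subgroup G)) ∈ _ from mem_zpowers x)) ⟨y, mem_sup_left hy⟩)

end FC

end Cfsg.Agent.Trans
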