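import Mathlib

/-!
# Primitive prime divisors
-/

set_option autoImplicit false
set_option linter.style.haveILetI false

namespace Cfsg.Agent.Trans

open Polynomial

/-- The value of a cyclotomic polynomial. -/
noncomputable def cyc (n a : ℕ) : ℤ := (cyclotomic n ℤ).eval (a : ℤ)

theorem cyc_cases {n a r : ℕ} (hn : n ≠ 0) [hr : Fact r.Prime] (h : (r : ℤ) ∣ cyc n a) :
    ∃ k m, n = r ^ k * m ∧ ¬ r ∣ m ∧ orderOf (a : ZMod r) = m := by
  obtain ⟨k, m, hm, rfl⟩ := Nat.exists_eq_pow_mul_and_not_dvd hn r hr.out.ne_one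
  haveI : NeZero (m : ZMod r) := ⟨fun e => hm ((ZMod.natCast_eq_zero_iff _ _).1 e)⟩
  refine ⟨k, m, rfl, hm, (isRoot_cyclotomic_prime_pow_mul_iff_of_charP (p := r) (k := k).1
    ?_).eq_orderOf.symm⟩
  rw [IsRoot.def, ← map_cyclotomic_int, ← Int.cast_natCast, eval_intCast_map]
  exact (ZMod.intCast_zmod_eq_zero_iff_dvd _ _).2 h

theorem cyc_dvd (n a : ℕ) : cyc n a ∣ (a : ℤ) ^ n - 1 := by
  simpa [cyc] using eval_dvd (x := (a : ℤ)) (cyclotomic.dvd_X_pow_sub_one n ℤ)

theorem dvd_cyc_mul {n : ℕ} (hn : n ≠ 0) (a : ℕ) :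
    (a : ℤ) ^ n - 1 ∣ cyc n a * ∏ d ∈ n.properDivisors, ((a : ℤ) ^ d - 1) := by
  have := congrArg (eval (a : ℤ)) (prod_cyclotomic_eq_X_pow_sub_one (Nat.pos_of_ne_zero hn) ℤ)
  rw [← Nat.cons_self_properDivisors hn, Finset.prod_cons, eval_mul, eval_prod] at this
  simp only [eval_sub, eval_pow, eval_X, eval_one] at this
  rw [← this]
  exact mul_dvd_mul_left _ (Finset.prod_dvd_prod_of_dvd _ _ fun d _ => cyc_dvd d a)

theorem order_dvd_pred {a r m : ℕ} [hr : Fact r.Prime] (h : orderOf (a : ZMod r) = m)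
    (hm : m ≠ 0) : m ∣ r - 1 :=
  h ▸ ZMod.orderOf_dvd_card_sub_one fun e => hm (by rw [← h, e, orderOf_zero])

theorem dvd_pow_sub_one_iff {a r k : ℕ} :
    (r : ℤ) ∣ (a : ℤ) ^ k - 1 ↔ orderOf (a : ZMod r) ∣ k := by
  rw [orderOf_dvd_iff_pow_eq_one, ← ZMod.intCast_zmod_eq_zero_iff_dvd]
  push_cast
  exact sub_eq_zero

theorem not_sq_dvd_cyc {n a r : ℕ} (hn : 2 < n) (ha : 2 ≤ a) [hr : Fact r.Prime] (hrn : r ∣ n) :
    ¬ (r : ℤ) ^ 2 ∣ cyc n a := by
  intro h
  obtain ⟨k, m, e, hm, ho⟩ := cyc_cases (by omega) ((dvd_pow_self _ two_ne_zero).trans h)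
  obtain ⟨d, hd⟩ := hrn
  have hr2 := hr.out.two_le
  have hd0 : 0 < d := Nat.pos_of_ne_zero fun e => by simp [e] at hd; omega
  have hmd : m ∣ d := (Nat.Coprime.dvd_mul_left
    ((Nat.Prime.coprime_iff_not_dvd hr.out).2 hm).symm).1 (hd ▸ e ▸ dvd_mul_left _ _)
  have h1 := eval_dvd (x := (a : ℤ)) (X_pow_sub_one_mul_cyclotomic_dvd_X_pow_sub_one_of_dvd ℤ
    (d := d) (n := n) (Nat.mem_properDivisors.2 ⟨hd ▸ dvd_mul_left _ _, by nlinarith⟩))
  simp only [eval_mul, eval_sub, eval_pow, eval_X, eval_one] at h1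
  have h2 : (1 : ℤ) < (a : ℤ) ^ d := one_lt_pow₀ (by omega) hd0.ne'
  have h3 : cyc n a ∣ ∑ i ∈ Finset.range r, ((a : ℤ) ^ d) ^ i := by
    refine Int.dvd_of_mul_dvd_mul_left (a := (a : ℤ) ^ d - 1) (by omega) ?_
    rwa [mul_geom_sum, ← pow_mul, mul_comm d, ← hd]
  have h4 : (r : ℤ) ∣ (a : ℤ) ^ d - 1 := dvd_pow_sub_one_iff.2 (ho ▸ hmd)
  have h5 := h.trans h3
  rcases hr.out.eq_two_or_odd' with rfl | hodd
  · have hm1 : m = 1 := Nat.dvd_one.1 (order_dvd_pred ho (by rintro rfl; simp at hm))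
    subst hm1
    have h6 := dvd_pow_sub_one_iff.2 (ho ▸ dvd_rfl : orderOf (a : ZMod 2) ∣ 1)
    obtain ⟨j, rfl⟩ : ∃ j, k = j + 2 := by
      rcases k with _ | _ | k
      · omega
      · omega
      · exact ⟨k, rfl⟩
    have : d = 2 ^ j * 2 := by
      rw [pow_add] at e
      omega
    rw [this, pow_mul] at h5
    obtain ⟨c, hc⟩ : Odd ((a : ℤ) ^ 2 ^ j) := Odd.pow (by
      obtain ⟨c, hc⟩ := h6
      exact ⟨c, by rw [pow_one] at hc; push_cast at hc; omega⟩)
    simp only [Finset.sum_range_succ, Finset.range_zero, Finset.sum_empty, hc] at h5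
    obtain ⟨t, ht⟩ := h5
    have : (4 : ℤ) * (c ^ 2 + c) + 2 = 4 * t := by push_cast at ht; linarith
    omega
  · have := emultiplicity_geom_sum₂_eq_one (Nat.prime_iff_prime_int.1 hr.out) hodd h4 fun e =>
      (Nat.prime_iff_prime_int.1 hr.out).not_dvd_one (by simpa using dvd_sub e h4)
    simp only [one_pow, mul_one] at this
    exact (emultiplicity_eq_coe.1 (this.trans Nat.cast_one.symm)).2 h5

theorem dvd_of_forall_prime {a b : ℤ} (h : ∀ r : ℕ, r.Prime → (r : ℤ) ∣ a →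
    (r : ℤ) ∣ b ∧ ¬ (r : ℤ) ^ 2 ∣ a) : a ∣ b := by
  rw [← Int.natAbs_dvd_natAbs, ← Nat.prod_primeFactors_of_squarefree (n := a.natAbs)
    (Nat.squarefree_iff_prime_squarefree.2 fun r hr e =>
      (h r hr (Int.natCast_dvd.2 ((dvd_mul_right r r).trans e))).2
        (by rw [sq, ← Nat.cast_mul]; exact Int.natCast_dvd.2 e))]
  refine Finset.prod_primes_dvd _ (fun r hr => (Nat.prime_of_mem_primeFactors hr).prime)
    fun r hr => Int.natCast_dvd.1 (h r (Nat.prime_of_mem_primeFactors hr)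
      (Int.natCast_dvd.2 (Nat.dvd_of_mem_primeFactors hr))).1

theorem cyc_cast (n a : ℕ) : (cyc n a : ℝ) = (cyclotomic n ℝ).eval (a : ℝ) := by
  rw [cyc, ← map_cyclotomic_int n ℝ, ← Int.cast_natCast (R := ℝ), eval_intCast_map]
  rfl

theorem cyc_mul_cyc {r m : ℕ} (hr : r.Prime) (hm : ¬ r ∣ m) (k a : ℕ) :
    cyc (r ^ (k + 1) * m) a * cyc m (a ^ r ^ k) = cyc m ((a ^ r ^ k) ^ r) := by
  induction k generalizing a with
  | zero =>
    have := congrArg (eval (a : ℤ)) (cyclotomic_expand_eq_cyclotomic_mul hr hm ℤ)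
    rw [expand_eval, eval_mul] at this
    simp only [cyc, zero_add, pow_one, pow_zero, Nat.cast_pow, this, mul_comm r]
  | succ k ih =>
    have := congrArg (eval (a : ℤ)) (cyclotomic_expand_eq_cyclotomic hr
      (n := r ^ (k + 1) * m) ((dvd_pow_self r k.succ_ne_zero).mul_right m) ℤ)
    rw [expand_eval] at this
    have h2 := ih (a ^ r)
    rw [← pow_mul, ← pow_succ'] at h2
    rw [← h2, show r ^ (k + 1 + 1) * m = r ^ (k + 1) * m * r by ring, cyc, cyc, cyc, ← this]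
    simp only [Nat.cast_pow]

theorem pow_gt_aux {b r : ℕ} (hb : 2 ≤ b) (hr : 5 ≤ r) : r * (b + 1) + 1 < b ^ r := by
  induction r, hr using Nat.le_induction with
  | base =>
    have : 2 ^ 4 ≤ b ^ 4 := Nat.pow_le_pow_left hb 4
    rw [pow_succ]
    nlinarith
  | succ r hr ih =>
    rw [pow_succ]
    nlinarith [Nat.mul_le_mul_left (b ^ r) hb, Nat.mul_le_mul_right (b + 1) hr]

theorem exists_ppd_two {n : ℕ} (hn : 2 ≤ n) (h6 : n ≠ 6) :
    ∃ r, r.Prime ∧ orderOf ((2 : ℕ) : ZMod r) = n := by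
  rcases hn.eq_or_lt with rfl | hn
  · exact ⟨3, Nat.prime_three, orderOf_eq_prime (by decide) (by decide)⟩
  by_contra hcon
  push Not at hcon
  have h1 := sub_one_lt_natAbs_cyclotomic_eval (n := n) (q := 2) (by omega) (by norm_num)
  obtain ⟨r, hr, hd⟩ := Nat.exists_prime_and_dvd h1.ne'
  have key : ∀ r : ℕ, r.Prime → (r : ℤ) ∣ cyc n 2 → ∃ k m, n = r ^ (k + 1) * m ∧ ¬ r ∣ m ∧
      orderOf ((2 : ℕ) : ZMod r) = m ∧ m < r := fun r hr hd => by
    haveI := Fact.mk hr
    obtain ⟨k, m, e, hm, ho⟩ := cyc_cases (by omega) hd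
    have := Nat.le_of_dvd (by have := hr.two_le; omega)
      (order_dvd_pred ho (by rintro rfl; simp at hm))
    rcases k with _ | k
    · exact absurd (ho.trans (by simp [e])) (hcon r hr)
    · exact ⟨k, m, e, hm, ho, by have := hr.two_le; omega⟩
  obtain ⟨k, m, e, hm, ho, hmr⟩ := key r hr (Int.natCast_dvd.2 hd)
  have hm0 : 0 < m := Nat.pos_of_ne_zero (by rintro rfl; simp at hm)
  have h2 : cyc n 2 ∣ r := dvd_of_forall_prime fun s hs hsd => by
    haveI := Fact.mk hs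
    obtain ⟨k', m', e', hm', -, hmr'⟩ := key s hs hsd
    have hm0' : 0 < m' := Nat.pos_of_ne_zero (by rintro rfl; simp at hm')
    have hsn : s ∣ n := e' ▸ (dvd_pow_self s k'.succ_ne_zero).mul_right _
    have hrn : r ∣ n := e ▸ (dvd_pow_self r k.succ_ne_zero).mul_right _
    refine ⟨?_, not_sq_dvd_cyc hn le_rfl hsn⟩
    by_contra hsr
    have hne : s ≠ r := fun e => hsr (e ▸ dvd_rfl)
    have a1 := Nat.le_of_dvd hm0 ((hs.dvd_mul.1 (e ▸ hsn)).resolve_left fun h =>
      hne ((Nat.prime_dvd_prime_iff_eq hs hr).1 (hs.dvd_of_dvd_pow h)))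
    have a2 := Nat.le_of_dvd hm0' ((hr.dvd_mul.1 (e' ▸ hrn)).resolve_left fun h =>
      hne ((Nat.prime_dvd_prime_iff_eq hr hs).1 (hr.dvd_of_dvd_pow h)).symm)
    omega
  haveI := Fact.mk hr
  have hm1 : m ≠ 1 := fun h => by
    have := dvd_pow_sub_one_iff.2 (ho ▸ h ▸ dvd_rfl : orderOf ((2 : ℕ) : ZMod r) ∣ 1)
    norm_num at this
    exact hr.one_lt.ne' (Nat.dvd_one.1 (by exact_mod_cast this))
  have h3 := congrArg (Int.cast (R := ℝ)) (cyc_mul_cyc hr hm k 2)
  rw [← e, Int.cast_mul, cyc_cast m, cyc_cast m] at h3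
  set b := 2 ^ r ^ k with hb
  have hb2 : 2 ≤ b := Nat.le_self_pow (pow_pos hr.pos k).ne' 2
  have hlt : r * (b + 1) + 1 < b ^ r := by
    rcases Nat.lt_or_ge r 5 with h5 | h5
    · have hr3 : r = 3 := by
        interval_cases r
        · omega
        · omega
        · omega
        · rfl
        · exact absurd hr (by norm_num)
      subst hr3
      obtain rfl : m = 2 := by omega
      have hk : k ≠ 0 := by rintro rfl; omega
      have : 2 ^ 3 ≤ b := Nat.pow_le_pow_right two_pos (Nat.le_self_pow hk 3)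
      nlinarith [Nat.mul_le_mul this this]
    · exact pow_gt_aux hb2 h5
  have a1 := cyclotomic_eval_le_add_one_pow_totient (q := (b : ℝ)) (by exact_mod_cast hb2) m
  have a2 := sub_one_pow_totient_le_cyclotomic_eval (q := ((b ^ r : ℕ) : ℝ))
    (by exact_mod_cast (by omega : 1 < b ^ r)) m
  have a3 : (cyc n 2 : ℝ) ≤ r := by exact_mod_cast Int.le_of_dvd (by exact_mod_cast hr.pos) h2
  have a4 : (0 : ℝ) ≤ (cyclotomic m ℝ).eval (b : ℝ) :=
    cyclotomic_nonneg m (by exact_mod_cast (by omega : 1 ≤ b))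
  have a5 : (r * (b + 1) : ℝ) ^ m.totient < (((b ^ r : ℕ) : ℝ) - 1) ^ m.totient :=
    pow_lt_pow_left₀ (by rw [lt_sub_iff_add_lt]; exact_mod_cast hlt) (by positivity)
      (Nat.totient_pos.2 hm0).ne'
  have a6 : (r : ℝ) ≤ r ^ m.totient :=
    le_self_pow₀ (by exact_mod_cast hr.one_le) (Nat.totient_pos.2 hm0).ne'
  rw [mul_pow] at a5
  have a7 : (cyc n 2 : ℝ) * (cyclotomic m ℝ).eval (b : ℝ) ≤ r ^ m.totient * (b + 1) ^ m.totient :=
    mul_le_mul (a3.trans a6) a1 a4 (by positivity)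
  linarith

theorem sq_le_totient (n : ℕ) :
    (n : ℚ) ^ 2 ≤ (if 2 ∣ n then 4 else 1) * (if 3 ∣ n then 9 / 8 else 1) * n.totient ^ 3 := by
  induction n using Nat.recOnPosPrimePosCoprime with
  | zero => simp
  | one => simp
  | prime_pow p k hp hk =>
    obtain ⟨k, rfl⟩ := Nat.exists_eq_succ_of_ne_zero hk.ne'
    have h1 : (p : ℚ) ^ 2 ≤ (if 2 ∣ p ^ (k + 1) then 4 else 1) *
        (if 3 ∣ p ^ (k + 1) then 9 / 8 else 1) * (p - 1) ^ 3 := by
      simp only [Nat.prime_two.prime.dvd_pow_iff_dvd k.succ_ne_zero,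
        Nat.prime_three.prime.dvd_pow_iff_dvd k.succ_ne_zero]
      rcases Nat.lt_or_ge p 5 with h | h
      · interval_cases p
        · exact absurd hp (by norm_num)
        · exact absurd hp (by norm_num)
        · norm_num
        · norm_num
        · exact absurd hp (by norm_num)
      · rw [if_neg fun e => by have := (Nat.prime_dvd_prime_iff_eq Nat.prime_two hp).1 e; omega,
          if_neg fun e => by have := (Nat.prime_dvd_prime_iff_eq Nat.prime_three hp).1 e; omega]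
        have : (5 : ℚ) ≤ p := by exact_mod_cast h
        nlinarith [sq_nonneg ((p : ℚ) - 1)]
    have h2 : (1 : ℚ) ≤ (p : ℚ) ^ k := one_le_pow₀ (by exact_mod_cast hp.one_le)
    rw [Nat.totient_prime_pow_succ hp, Nat.succ_eq_add_one]
    push_cast [Nat.cast_sub hp.one_le]
    rw [pow_succ (p : ℚ) k, mul_pow, mul_pow, mul_left_comm]
    exact mul_le_mul (pow_le_pow_right₀ h2 (by norm_num)) h1 (by positivity) (by positivity)
  | coprime a b ha hb hab iha ihb =>
    have h2 : ∀ p : ℕ, p.Prime → ∀ c : ℚ, (if p ∣ a * b then c else 1) =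
        (if p ∣ a then c else 1) * (if p ∣ b then c else 1) := fun p hp c => by
      simp only [hp.dvd_mul]
      by_cases h1 : p ∣ a <;> by_cases h2 : p ∣ b <;> simp [h1, h2]
      exact absurd (Nat.eq_one_of_dvd_coprimes hab h1 h2) hp.ne_one
    rw [h2 2 Nat.prime_two, h2 3 Nat.prime_three, Nat.totient_mul hab]
    push_cast
    refine (le_of_eq (by ring)).trans ((mul_le_mul iha ihb (by positivity)
      ((sq_nonneg _).trans iha)).trans (le_of_eq (by ring)))

theorem two_mul_sq_le (n : ℕ) : 2 * n ^ 2 ≤ 9 * n.totient ^ 3 := by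
  have h := sq_le_totient n
  have h0 : (0 : ℚ) ≤ n.totient ^ 3 := by positivity
  have : (2 * n ^ 2 : ℚ) ≤ 9 * n.totient ^ 3 := by
    split_ifs at h <;> linarith
  exact_mod_cast this

theorem pow_nine_le {t : ℕ} (ht : 28 ≤ t) : 821 * t ^ 9 ≤ 4 ^ t := by
  induction t, ht using Nat.le_induction with
  | base => norm_num
  | succ t ht ih =>
    have := Nat.pow_le_pow_left (show 7 * (t + 1) ≤ 8 * t by omega) 9
    rw [mul_pow, mul_pow] at this
    rw [pow_succ 4]
    omega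

theorem lt_of_totient {n : ℕ} (h : 2 ^ n.totient < n * (n + 1) * (2 * n + 1)) : n < 298 := by
  by_contra hn
  have h1 := two_mul_sq_le n
  have h2 : 28 ≤ n.totient := by
    by_contra h2
    have := Nat.pow_le_pow_left (show n.totient ≤ 27 by omega) 3
    nlinarith
  have h3 := pow_nine_le h2
  have h4 : n * (n + 1) * (2 * n + 1) ≤ 3 * n ^ 3 := by nlinarith [Nat.zero_le (n ^ 2)]
  have h5 := Nat.pow_lt_pow_left (h.trans_le h4) two_ne_zero
  have h6 := Nat.pow_le_pow_left h1 3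
  rw [← pow_mul, mul_comm, pow_mul, show 2 ^ 2 = 4 from rfl] at h5
  ring_nf at h3 h5 h6
  omega

/-- The finite check. -/
def zchk (n : ℕ) : Bool :=
  let t := n.totient
  let B := n * (n + 1) * (2 * n + 1)
  decide (B ≤ 24 ^ t) && (List.range 25).all fun p => decide (p < 3) || decide (B ≤ (p - 1) ^ t) ||
    decide ((n, p) ∈ [(3, 4), (4, 3), (6, 3), (6, 4), (6, 5), (6, 10), (6, 17), (18, 3)]) ||
    !decide ((p : ℤ) ^ n - 1 ∣ B * ∏ d ∈ n.properDivisors, ((p : ℤ) ^ d - 1))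

theorem zchk_all : ((List.range 298).all fun n => decide (n < 3) || zchk n) = true := by
  decide +kernel

theorem exists_good_ppd {p n : ℕ} (hp : p.Prime) (h3 : 3 ≤ p) (hn : 3 ≤ n) :
    (∃ r, r.Prime ∧ orderOf (p : ZMod r) = n ∧ ((r : ℤ) ^ 2 ∣ (p : ℤ) ^ n - 1 ∨ 2 * n + 1 < r)) ∨
      (n, p) ∈ [(4, 3), (6, 3), (6, 5), (6, 17), (18, 3)] := by
  refine or_iff_not_imp_left.2 fun hcon => ?_
  push Not at hcon
  have h1 : cyc n p ∣ (n * (n + 1) * (2 * n + 1) : ℕ) := dvd_of_forall_prime fun r hr hd => by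
    haveI := Fact.mk hr
    obtain ⟨k, m, e, hm, ho⟩ := cyc_cases (by omega) hd
    rcases k with _ | k
    · obtain rfl : n = m := by simpa using e
      obtain ⟨a1, a2⟩ := hcon r hr ho
      refine ⟨Int.natCast_dvd_natCast.2 ?_, fun e => a1 (e.trans (cyc_dvd _ _))⟩
      obtain ⟨c, hc⟩ := order_dvd_pred ho (by omega)
      have := hr.two_le
      obtain rfl | rfl : r = n + 1 ∨ r = 2 * n + 1 := by
        rcases c with _ | _ | _ | c
        · omega
        · omega
        · omega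
        · nlinarith [show r = n * (c + 1 + 1 + 1) + 1 by omega]
      · exact (dvd_mul_left _ _).mul_right _
      · exact dvd_mul_left _ _
    · have hrn : r ∣ n := e ▸ (dvd_pow_self r k.succ_ne_zero).mul_right _
      exact ⟨Int.natCast_dvd_natCast.2 ((hrn.mul_right _).mul_right _),
        not_sq_dvd_cyc (by omega) (by omega) hrn⟩
  have h2 := (sub_one_pow_totient_lt_natAbs_cyclotomic_eval (n := n) (q := p) (by omega)
    (by omega)).trans_le (Nat.le_of_dvd (by positivity) (Int.dvd_natCast.1 h1))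
  have h4 := lt_of_totient ((Nat.pow_le_pow_left (by omega) _).trans_lt h2)
  have h5 := List.all_eq_true.1 zchk_all n (List.mem_range.2 h4)
  simp only [zchk, Bool.or_eq_true, decide_eq_true_eq, Bool.and_eq_true, List.all_eq_true,
    List.mem_range, Bool.not_eq_true', decide_eq_false_iff_not] at h5
  obtain ⟨h6, h7⟩ := h5.resolve_left (by omega)
  have h8 : p - 1 < 24 := lt_of_pow_lt_pow_left₀ _ (by norm_num) (h2.trans_le h6)
  rcases h7 p (by omega) with ((h | h) | h) | h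
  · omega
  · omega
  · simp only [List.mem_cons, Prod.mk.injEq, List.not_mem_nil, or_false] at h ⊢
    have a4 : p ≠ 4 := by rintro rfl; exact absurd hp (by norm_num)
    have a10 : p ≠ 10 := by rintro rfl; exact absurd hp (by norm_num)
    omega
  · exact absurd ((dvd_cyc_mul (by omega) p).trans (mul_dvd_mul_right h1 _)) h

end Cfsg.Agent.Trans
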