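import Cfsg.Agent.Lib.Trans.Two
import Cfsg.Agent.Lib.Trans.Zsig
import Cfsg.Agent.Lib.FT.Main

/-!
# Primitive prime divisors, and characteristic two
-/

set_option autoImplicit false
set_option linter.unusedSectionVars false
set_option linter.style.haveILetI false

namespace Cfsg.Agent.Trans

open Cfsg.Agent.Block Cfsg.Agent.Char Cfsg.Agent.Tr Subgroup Module

variable {G : Type*} [Group G] [Finite G]

theorem nat_dvd_iff {a r k : ℕ} (ha : 0 < a) : r ∣ a ^ k - 1 ↔ orderOf (a : ZMod r) ∣ k := by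
  rw [← dvd_pow_sub_one_iff, ← Int.natCast_dvd_natCast, Nat.cast_sub (Nat.one_le_pow _ _ ha)]
  simp

theorem ord_three_37 : orderOf ((3 : ℕ) : ZMod 37) = 18 :=
  (orderOf_eq_iff (by norm_num)).2 ⟨by decide, by decide⟩

theorem ord_two_7 : orderOf ((2 : ℕ) : ZMod 7) = 3 := orderOf_eq_prime (by decide) (by decide)

theorem ee_dvd_pred {r : ℕ} [hr : Fact r.Prime] {L : Subgroup G} (hc : Nat.card L = r) :
    ee L ∣ r - 1 := by
  haveI := isCyclic_of_prime_card hc
  rw [← card_range_eq_ee, ← Nat.totient_prime hr.out, ← hc, ← IsCyclic.card_mulAut]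
  exact card_subgroup_dvd_card _

theorem card_eq_cent_mul (L : Subgroup G) [L.Normal] :
    Nat.card G = Nat.card (centralizer (L : Set G)) * ee L := by
  rw [ee_mul, normalizer_eq_top, card_top]

theorem comm_of_card_prime {r : ℕ} [Fact r.Prime] {L : Subgroup G} (hc : Nat.card L = r) :
    ∀ a ∈ L, ∀ b ∈ L, a * b = b * a := fun a ha b hb =>
  haveI := isCyclic_of_prime_card hc
  congrArg Subtype.val (mul_comm' (⟨a, ha⟩ : L) ⟨b, hb⟩)

theorem mem_pCore_of_cent [Group.IsSolvable G] {r : ℕ} [hr : Fact r.Prime] {x : G}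
    (hx : orderOf x = r) (h : ∀ s : ℕ, s.Prime → x ∈ centralizer (pCore s G : Set G)) :
    x ∈ pCore r G := by
  refine Fit.le_pCore_of_le_fitting hr.out (isPGroup_zpowers_of_orderOf_eq hx)
    (zpowers_le.2 (Fit.centralizer_fitting_le ?_)) (mem_zpowers x)
  have : fittingSubgroup G ≤ centralizer ({x} : Set G) := by
    rw [Fit.fitting_eq_iSup_pCore]
    exact iSup_le fun s a ha => mem_centralizer_singleton_iff.2 (h s s.2 a ha)
  exact fun a ha => mem_centralizer_singleton_iff.1 (this ha)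

theorem not_dvd_pCore {r s : ℕ} (hr : r.Prime) (hs : s.Prime) (h : s ≠ r) :
    ¬ r ∣ Nat.card (pCore s G) := fun e => by
  haveI := Fact.mk hs
  obtain ⟨k, hk⟩ := IsPGroup.iff_card.1 (Fit.isPGroup_pCore s G)
  exact h ((Nat.prime_dvd_prime_iff_eq hr hs).1 (hr.dvd_of_dvd_pow (hk ▸ e))).symm

theorem FC.comm_of_pgroup {p n r : ℕ} {χ : G → ℂ} (h : FC p χ n) [hr : Fact r.Prime] (hn : n < r)
    {P : Subgroup G} (hP : IsPGroup r P) : ∀ a ∈ P, ∀ b ∈ P, a * b = b * a := fun a ha b hb => by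
  have h' := h.res P
  refine congrArg Subtype.val (comm_of_deg h'.char h'.faith (fun ψ hψ => ?_) ⟨a, ha⟩ ⟨b, hb⟩)
  obtain ⟨k, hk⟩ := IsPGroup.iff_card.1 hP
  obtain ⟨i, -, hi⟩ := (Nat.dvd_prime_pow hr.out).1 (hk ▸ deg_dvd_card ψ)
  have := deg_le_of_mu h'.char h'.one hψ
  rcases i with _ | i
  · exact hi.le
  · have := Nat.le_self_pow (Nat.add_one_ne_zero i) r
    omega

theorem FC.cent_pCore {p n r : ℕ} {χ : G → ℂ} (h : FC p χ n) [hr : Fact r.Prime] (hn : n < r)
    {x : G} (hx : orderOf x = r) : x ∈ centralizer (pCore r G : Set G) := by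
  obtain ⟨P, hP, hxP⟩ := exists_sylowIn_ge (isPGroup_zpowers_of_orderOf_eq hx) le_top
  exact fun a ha => h.comm_of_pgroup hn hP.isPGroup a (hP.le_of_le_normalizer
    (Fit.isPGroup_pCore r G) le_top le_normalizer_of_normal ha) x (hxP (mem_zpowers x))

variable {p : ℕ} [hp : Fact p.Prime] {V : Type*} [AddCommGroup V] [Module (ZMod p) V] [Finite V]
  {ρ : Representation (ZMod p) G V} {χ : G → ℂ} {n : ℕ} {v : V}

/-- No constituent of `χ` on a fixed-point-free subgroup is trivial. -/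
def Fix (ρ : Representation (ZMod p) G V) (χ : G → ℂ) : Prop :=
  ∀ Y : Subgroup G, mu (fun y : Y => χ y) (irrOne Y) ≠ 0 → ∃ v ≠ 0, ∀ y ∈ Y, ρ y v = v

namespace TS
variable (h : TS ρ) (hn : finrank (ZMod p) V = n) (hv : v ≠ 0)
include h hn hv

theorem card_eq' : Nat.card G = (p ^ n - 1) * Nat.card (stab ρ v) := by
  rw [h.card_eq hv, card_pow p V, hn]

omit hv in
theorem card_dvd_GL : Nat.card G ∣ ∏ i : Fin n, (p ^ n - p ^ (i : ℕ)) := by
  classical
  have b := Module.finBasisOfFinrankEq (ZMod p) V hn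
  have := Matrix.card_GL_field (𝔽 := ZMod p) n
  rw [ZMod.card] at this
  rw [← this]
  refine card_dvd_of_injective ((Units.map (LinearMap.toMatrixAlgEquiv b).toMonoidHom).comp
    ρ.toHomUnits) ((injective_iff_map_eq_one _).2 fun g hg => h.faith g fun w => ?_)
  have : ρ g = 1 := (map_eq_one_iff _ (LinearMap.toMatrixAlgEquiv b).injective).1
    (congrArg Units.val hg)
  rw [this]
  rfl

theorem goal_of_normal {r : ℕ} (hr : orderOf (p : ZMod r) = n) (M : Subgroup G) [M.Normal]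
    (hM : ∀ a ∈ M, ∀ b ∈ M, a * b = b * a) (hd : r ∣ Nat.card M) : Goal ρ v :=
  h.caseA M hM ((h.semi M hM).irred fun m h0 hm e => by
    have := Nat.le_of_dvd h0 ((nat_dvd_iff hp.out.pos).1 (hd.trans e))
    omega) hv

theorem dvd_card {r : ℕ} (hr : orderOf (p : ZMod r) ∣ n) : r ∣ Nat.card G :=
  h.card_eq' hn hv ▸ ((nat_dvd_iff hp.out.pos).2 hr).mul_right _

theorem goal_ppd (hχ : FC p χ n) (h0 : 0 < n) {r : ℕ} [Fact r.Prime]
    (hr : orderOf (p : ZMod r) = n)
    (hc : r ^ 2 ∣ Nat.card G ∨ ∀ ξ, mu χ ξ ≠ 0 → 2 * deg ξ + 1 < r) : Goal ρ v := by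
  obtain ⟨P, hP⟩ := exists_sylowIn (p := r) (⊤ : Subgroup G)
  haveI := hχ.ppd_normal hr h0 hP hc
  refine h.goal_of_normal hn hv hr P (fun a ha b hb => (hχ.tis hr h0 hP).ab hb a ha) ?_
  exact hP.isPGroup.card_eq_or_dvd.resolve_left fun e => hP.ne_bot
    (card_top (G := G) ▸ h.dvd_card hn hv hr.dvd) (card_eq_one.1 e)

theorem goal_good (hχ : FC p χ n) (h0 : 0 < n) {r : ℕ} (hr' : r.Prime)
    (hr : orderOf (p : ZMod r) = n) (hc : (r : ℤ) ^ 2 ∣ (p : ℤ) ^ n - 1 ∨ 2 * n + 1 < r) :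
    Goal ρ v := by
  haveI := Fact.mk hr'
  refine h.goal_ppd hn hv hχ h0 hr (hc.imp (fun e => ?_) fun e ξ hξ => ?_)
  · rw [h.card_eq' hn hv]
    refine Dvd.dvd.mul_right (Int.natCast_dvd_natCast.1 ?_) _
    rw [Nat.cast_sub (Nat.one_le_pow _ _ hp.out.pos)]
    simpa using e
  · have := deg_le_of_mu hχ.char hχ.one hξ
    omega

theorem goal_eighteen (hχ : FC p χ n) (h3 : p = 3) (h18 : n = 18) : Goal ρ v := by
  subst h3 h18
  haveI : Fact (Nat.Prime 37) := ⟨by norm_num⟩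
  refine h.goal_ppd hn hv hχ (by omega) (r := 37) ord_three_37 (Or.inr fun ξ hξ => ?_)
  have := deg_le_of_mu hχ.char hχ.one hξ
  have : deg ξ ≠ 18 := fun e => h.cop ((show 3 ∣ 18 by norm_num).trans (e ▸ deg_dvd_card ξ))
  omega

theorem goal_of_cent [Group.IsSolvable G] (hχ : FC p χ n) (h0 : 0 < n) {r : ℕ} [hr' : Fact r.Prime]
    (hr : orderOf (p : ZMod r) = n) {x : G} (hx : orderOf x = r)
    (hc : ∀ s : ℕ, s.Prime → s ≠ r → x ∈ centralizer (pCore s G : Set G)) : Goal ρ v := by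
  have h1 : n < r := by
    have := hr'.out.two_le
    have := Nat.le_of_dvd (by omega) (order_dvd_pred hr h0.ne')
    omega
  refine h.goal_of_normal hn hv hr (pCore r G) (hχ.comm_of_pgroup h1 (Fit.isPGroup_pCore r G))
    (hx.symm.dvd.trans (orderOf_dvd_natCard _ (mem_pCore_of_cent hx fun s hs => ?_)))
  by_cases e : s = r
  · exact e ▸ hχ.cent_pCore h1 hx
  · exact hc s hs e

omit hn hv in
theorem deg_cent (hχ : FC p χ 6) (hf : Fix ρ χ) {r : ℕ} [hr : Fact r.Prime]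
    (ho : orderOf (p : ZMod r) = 3) {L : Subgroup G} [L.Normal] (hc : Nat.card L = r)
    (φ : IrrCharacter (centralizer (L : Set G)))
    (hφ : mu (fun y : centralizer (L : Set G) => χ y) φ ≠ 0) : deg φ ≤ 2 := by
  have hL := comm_of_card_prime hc
  have hle : L ≤ centralizer (L : Set G) := fun a ha b hb => hL b hb a ha
  haveI : Nontrivial L := Finite.one_lt_card_iff_nontrivial.1 (hc ▸ hr.out.one_lt)
  refine (deg_le_mu_cch φ (inclusion hle) (fun x g => Subtype.ext (g.2 x x.2).symm)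
    (hχ.res _).char hφ).trans ?_
  generalize cch φ (inclusion hle) _ = l
  change mu (fun y : L => χ y) l ≤ 2
  by_cases hl : l = irrOne L
  · by_contra hcon
    obtain ⟨w, hw, e⟩ := hf L (by rw [← hl]; omega)
    obtain ⟨x, hx⟩ := exists_ne (1 : L)
    exact hx (Subtype.ext (h.semi L hL x x.2 w hw (e x x.2)))
  · have := (hχ.res L).order_mul_le (r := r) (fun a b => Subtype.ext (hL a a.2 b b.2))
      (fun a => by rw [← hc, pow_card_eq_one']) hl
    rw [ho] at this
    omega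

end TS

theorem FC.cent_of_odd (hχ : FC 2 χ n) {r : ℕ} [hr : Fact r.Prime] (hn : n < r) (h2 : r ≠ 2)
    {x : G} (hx : orderOf x = r) (s : ℕ) (hs : s.Prime) :
    x ∈ centralizer (pCore s G : Set G) := by
  by_cases e : s = r
  · exact e ▸ hχ.cent_pCore hn hx
  refine (hχ.lemmaS' hn hx (not_dvd_pCore hr.out hs e) (le_normalizer_of_normal
    (mem_top x))).resolve_right fun ⟨h1, h3⟩ => hχ.cop ?_
  have := hr.out.eq_two_or_odd
  exact ((show 2 ∣ n by omega).trans (dvd_card_of_isIrr h1 hχ.one)).trans (card_subgroup_dvd_card _)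

theorem TS.goal_even (h : TS ρ) (hn : finrank (ZMod p) V = n) (hv : v ≠ 0) (hχ : FC p χ n)
    (hf : Fix ρ χ) (hp2 : p = 2) (h2 : 2 ≤ n) : Goal ρ v := by
  subst hp2
  haveI := FT.oddOrder G (Nat.odd_iff.2 (Nat.two_dvd_ne_zero.1 h.cop))
  by_cases h6 : n = 6
  swap
  · obtain ⟨r, hr, ho⟩ := exists_ppd_two h2 h6
    haveI := Fact.mk hr
    obtain ⟨x, hx⟩ := exists_prime_orderOf_dvd_card' r (h.dvd_card hn hv ho.dvd)
    have := hr.two_le
    have := Nat.le_of_dvd (by omega) (order_dvd_pred ho (by omega))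
    exact h.goal_of_cent hn hv hχ (by omega) ho hx fun s hs _ =>
      hχ.cent_of_odd (by omega) (by omega) hx s hs
  subst h6
  haveI : Fact (Nat.Prime 7) := ⟨by norm_num⟩
  have ho := ord_two_7
  obtain ⟨x, hx⟩ := exists_prime_orderOf_dvd_card' 7 (h.dvd_card hn hv (ho ▸ by norm_num))
  have h1 := orderOf_dvd_natCard _ (mem_pCore_of_cent hx
    (hχ.cent_of_odd (by omega) (by omega) hx))
  have hM := hχ.comm_of_pgroup (by omega) (Fit.isPGroup_pCore 7 G)
  have h3 := (h.semi _ hM).dvd_top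
  obtain ⟨k, hk⟩ := IsPGroup.iff_card.1 (Fit.isPGroup_pCore 7 G)
  have hc : Nat.card (pCore 7 G) = 7 := by
    rw [hx, hk] at h1
    rw [hn, hk] at h3
    rw [hk]
    rcases k with _ | _ | k
    · simp at h1
    · rfl
    · exact absurd ((pow_dvd_pow 7 (show 2 ≤ k + 1 + 1 by omega)).trans h3) (by norm_num)
  have hC := (hχ.res (centralizer (pCore 7 G : Set G)))
  have h4 : ∀ a ∈ centralizer (pCore 7 G : Set G), ∀ b ∈ centralizer (pCore 7 G : Set G),
      a * b = b * a := fun a ha b hb => congrArg Subtype.val (comm_of_deg hC.char hC.faith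
    (fun φ hφ => by
      have := h.deg_cent hχ hf ho hc φ hφ
      have : deg φ ≠ 2 := fun e => hC.cop (e ▸ deg_dvd_card φ)
      omega) ⟨a, ha⟩ ⟨b, hb⟩)
  refine h.caseA _ h4 ((h.semi _ h4).irred fun m h0 hm e => ?_) hv
  have h5 := card_eq_cent_mul (pCore 7 G)
  have h6 := ee_dvd_pred hc
  have h7 : ee (pCore 7 G) ≤ 3 := by
    have : ¬ 2 ∣ ee (pCore 7 G) := fun e => h.cop (e.trans (ee_dvd_card _))
    have := Nat.le_of_dvd (by norm_num) h6
    generalize ee (pCore 7 G) = e at *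
    interval_cases e <;> omega
  have h8 : 7 ∣ 2 ^ m - 1 := hc.symm.dvd.trans ((card_dvd_of_le
    (show pCore 7 G ≤ centralizer _ from fun a ha b hb => hM b hb a ha)).trans e)
  have h9 := Nat.le_of_dvd (Nat.sub_pos_of_lt (Nat.one_lt_two_pow h0.ne')) e
  have h10 : 0 < Nat.card (stab ρ v) := Nat.card_pos
  rw [h.card_eq' hn hv] at h5
  rw [hn] at hm
  have := Nat.mul_le_mul h9 h7
  interval_cases m <;> omega

end Cfsg.Agent.Trans
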