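import Cfsg.Agent.Lib.Trans.Norm
import Cfsg.Agent.Lib.Ind.AbField

/-!
# Transitive coprime linear groups: the setting and the semilinear case
-/

set_option autoImplicit false
set_option linter.unusedSectionVars false
set_option linter.style.haveILetI false

namespace Cfsg.Agent.Trans

open Cfsg.Agent.Tr Subgroup Module

theorem card_dvd_of_free {A X : Type*} [Group A] (f : A → X → X) (h1 : ∀ x, f 1 x = x)
    (hmul : ∀ a b x, f (a * b) x = f a (f b x)) (S : X → Prop) (hS : ∀ a x, S x → S (f a x))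
    (hfree : ∀ a x, S x → f a x = x → a = 1) : Nat.card A ∣ Nat.card {x // S x} := by
  letI : MulAction A {x // S x} :=
    { smul := fun a x => ⟨f a x.1, hS a x.1 x.2⟩
      one_smul := fun x => Subtype.ext (h1 x.1)
      mul_smul := fun a b x => Subtype.ext (hmul a b x.1) }
  have := Nat.card_congr (MulAction.selfEquivOrbitsQuotientProd (G := A) (X := {x // S x})
    fun x => eq_bot_iff.2 fun a ha => hfree a x.1 x.2 (congrArg Subtype.val ha))
  rw [Nat.card_prod] at this
  exact this ▸ dvd_mul_left _ _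

theorem card_ne_zero_subtype {X : Type*} [Finite X] (x : X) :
    Nat.card {y // y ≠ x} = Nat.card X - 1 := by
  classical
  haveI := Fintype.ofFinite X
  simp [Nat.card_eq_fintype_card]

theorem card_conj_le (H : Type*) [Group H] [Finite H] : Nat.card (ConjClasses H) ≤ Nat.card H :=
  Nat.card_le_card_of_surjective _ ConjClasses.mk_surjective

variable {p : ℕ} [hp : Fact p.Prime] {G : Type*} [Group G] [Finite G] {V : Type*} [AddCommGroup V]
  [Module (ZMod p) V] [Finite V]

/-- A transitive coprime linear group. -/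
structure TS (ρ : Representation (ZMod p) G V) : Prop where
  cop : ¬ p ∣ Nat.card G
  faith : ∀ g, (∀ v, ρ g v = v) → g = 1
  trans : ∀ v w, v ≠ 0 → w ≠ 0 → ∃ g, ρ g v = w

theorem rep_mul (ρ : Representation (ZMod p) G V) (g h : G) (v : V) :
    ρ (g * h) v = ρ g (ρ h v) := by rw [map_mul]; rfl

theorem rep_one (ρ : Representation (ZMod p) G V) (v : V) : ρ 1 v = v := by rw [map_one]; rfl

theorem rep_ne_zero (ρ : Representation (ZMod p) G V) (g : G) {v : V} (hv : v ≠ 0) : ρ g v ≠ 0 :=
  fun e => hv ((ρ.apply_bijective g).1 (e.trans (map_zero _).symm))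

/-- The stabilizer of a vector. -/
def stab (ρ : Representation (ZMod p) G V) (v : V) : Subgroup G where
  carrier := {g | ρ g v = v}
  mul_mem' {a b} ha hb := by
    rw [Set.mem_ofPred_eq] at ha hb ⊢
    rw [rep_mul, hb, ha]
  one_mem' := rep_one ρ v
  inv_mem' {a} ha := ρ.inv_apply_eq_iff.2 ha.symm

theorem mem_stab {ρ : Representation (ZMod p) G V} {v : V} {g : G} : g ∈ stab ρ v ↔ ρ g v = v :=
  Iff.rfl

theorem stab_apply (ρ : Representation (ZMod p) G V) (g : G) (v : V) :
    stab ρ (ρ g v) = cj g (stab ρ v) := by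
  ext x
  rw [mem_cj, mem_stab, mem_stab, rep_mul, rep_mul, Representation.inv_apply_eq_iff]

/-- The conclusion. -/
def Goal (ρ : Representation (ZMod p) G V) (v : V) : Prop :=
  Nat.card (ConjClasses G) + Nat.card (ConjClasses (stab ρ v)) ≤ Nat.card V ∧
    (Nat.card (ConjClasses G) + Nat.card (ConjClasses (stab ρ v)) = Nat.card V →
      IsCyclic G ∨ (Nat.card V = 8 ∧ Nat.card G = 21) ∨ (Nat.card V = 9 ∧ Nat.card G = 16))

theorem goal_of_lt {ρ : Representation (ZMod p) G V} {v : V}
    (h : Nat.card (ConjClasses G) + Nat.card (stab ρ v) < Nat.card V) : Goal ρ v := by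
  have := card_conj_le (stab ρ v)
  exact ⟨by omega, fun e => by omega⟩

variable (p) in
theorem card_pow (W : Type*) [AddCommGroup W] [Module (ZMod p) W] [Finite W] :
    Nat.card W = p ^ finrank (ZMod p) W := by
  rw [Module.natCard_eq_pow_finrank (K := ZMod p), Nat.card_zmod]

/-- Semiregular subgroups. -/
def Semi (ρ : Representation (ZMod p) G V) (A : Subgroup G) : Prop :=
  ∀ a ∈ A, ∀ v, v ≠ 0 → ρ a v = v → a = 1

/-- Irreducible subgroups. -/
def Irred (ρ : Representation (ZMod p) G V) (A : Subgroup G) : Prop :=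
  ∀ U : Submodule (ZMod p) V, (∀ a ∈ A, ∀ u ∈ U, ρ a u ∈ U) → U = ⊥ ∨ U = ⊤

variable {ρ : Representation (ZMod p) G V}

theorem Semi.dvd {A : Subgroup G} (h : Semi ρ A) (U : Submodule (ZMod p) V)
    (hU : ∀ a ∈ A, ∀ u ∈ U, ρ a u ∈ U) : Nat.card A ∣ p ^ finrank (ZMod p) U - 1 := by
  rw [← card_pow, ← card_ne_zero_subtype (0 : U)]
  exact card_dvd_of_free (A := A) (fun a (u : U) => ⟨ρ a u, hU a a.2 u u.2⟩)
    (fun u => Subtype.ext (rep_one ρ _)) (fun a b u => Subtype.ext (rep_mul ρ _ _ _)) _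
    (fun a u hu e => rep_ne_zero ρ a (fun e => hu (Subtype.ext e)) (congrArg Subtype.val e))
    fun a u hu e => Subtype.ext (h a a.2 u (fun e => hu (Subtype.ext e)) (congrArg Subtype.val e))

theorem Semi.dvd_top {A : Subgroup G} (h : Semi ρ A) :
    Nat.card A ∣ p ^ finrank (ZMod p) V - 1 := by
  simpa using h.dvd ⊤ fun _ _ _ _ => trivial

theorem Semi.irred {A : Subgroup G} (h : Semi ρ A)
    (hd : ∀ m, 0 < m → m < finrank (ZMod p) V → ¬ Nat.card A ∣ p ^ m - 1) : Irred ρ A := by
  intro U hU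
  by_contra hc
  push Not at hc
  exact hd _ (Nat.pos_of_ne_zero fun e => hc.1 (Submodule.finrank_eq_zero.1 e))
    (Submodule.finrank_lt hc.2) (h.dvd U hU)

theorem arith_field {e f d S : ℕ} (he : 2 ≤ e) (hf : 2 ≤ f) (hd : 2 ≤ d) (hde : d ∣ e)
    (hS : S ^ d = f ^ e) (hodd : 2 ∣ e → ¬ 2 ∣ f) : (e + 1) * S < f ^ e ∨
      (e + 1) * S ≤ f ^ e ∧ (f ^ e = 9 ∧ e = 2 ∨ f ^ e = 8 ∧ e = 3) := by
  have hS0 : 0 < S := Nat.pos_of_ne_zero fun h => by
    rw [h, zero_pow (by omega)] at hS
    exact (pow_pos (by omega) e).ne hS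
  have hq : 0 < f ^ e := pow_pos (by omega) e
  by_cases h2 : 2 ∣ e
  · have hf3 : 3 ≤ f := by have := hodd h2; omega
    have h1 : S ^ 2 ≤ f ^ e := hS ▸ Nat.pow_le_pow_right hS0 hd
    by_cases h9 : f = 3 ∧ e = 2
    · obtain ⟨rfl, rfl⟩ := h9
      exact Or.inr ⟨by nlinarith, Or.inl ⟨rfl, rfl⟩⟩
    refine Or.inl (lt_of_pow_lt_pow_left₀ 2 (Nat.zero_le _) ?_)
    have h3 : (e + 1) ^ 2 < f ^ e := by
      rcases he.eq_or_lt with rfl | he
      · exact Nat.pow_lt_pow_left (by omega) two_ne_zero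
      · refine lt_of_lt_of_le ?_ (Nat.pow_le_pow_left hf3 e)
        clear hS hde hodd h2 h1 h9 hq
        induction e, he using Nat.le_induction with
        | base => norm_num
        | succ e he ih => rw [pow_succ 3]; nlinarith [ih (by omega)]
    rw [mul_pow, sq (f ^ e)]
    exact Nat.mul_lt_mul_of_lt_of_le h3 h1 hq
  · have hd3 : 3 ≤ d := by
      rcases hd.eq_or_lt with rfl | h
      · exact absurd hde h2
      · exact h
    have he3 : 3 ≤ e := by omega
    have h1 : S ^ 3 ≤ f ^ e := hS ▸ Nat.pow_le_pow_right hS0 hd3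
    by_cases h9 : f = 2 ∧ e = 3
    · obtain ⟨rfl, rfl⟩ := h9
      have : S ≤ 2 := le_of_pow_le_pow_left₀ three_ne_zero (Nat.zero_le _) h1
      exact Or.inr ⟨by omega, Or.inr ⟨rfl, rfl⟩⟩
    refine Or.inl (lt_of_pow_lt_pow_left₀ 3 (Nat.zero_le _) ?_)
    have h3 : (e + 1) ^ 3 < (f ^ e) ^ 2 := by
      rw [← pow_mul, mul_comm, pow_mul]
      rcases he3.eq_or_lt with rfl | he
      · exact Nat.pow_lt_pow_left (by nlinarith [show 3 ≤ f by omega]) three_ne_zero
      · refine lt_of_lt_of_le ?_ (Nat.pow_le_pow_left (show 4 ≤ f ^ 2 by nlinarith) e)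
        clear hS hde hodd h2 h1 h9 hq
        induction e, he using Nat.le_induction with
        | base => norm_num
        | succ e he ih =>
          have := Nat.pow_le_pow_left (show 2 * (e + 1 + 1) ≤ 3 * (e + 1) by omega) 3
          have := ih (by omega) (by omega)
          rw [mul_pow, mul_pow] at *
          rw [pow_succ 4]
          omega
    rw [mul_pow, pow_succ (f ^ e) 2]
    exact Nat.mul_lt_mul_of_lt_of_le h3 h1 (by positivity)

theorem card_fixed_pow {E : Type*} [Field E] [Finite E] (Γ : Subgroup (RingAut E)) :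
    Nat.card (FixedPoints.subfield Γ E) ^ Nat.card Γ = Nat.card E := by
  haveI : Finite (RingAut E) := Finite.of_injective _ DFunLike.coe_injective
  haveI := Fintype.ofFinite Γ
  rw [Module.natCard_eq_pow_finrank (K := FixedPoints.subfield Γ E) (V := E),
    FixedPoints.finrank_eq_card, Nat.card_eq_fintype_card (α := Γ)]

theorem card_conj_mul_le (A : Subgroup G) [A.Normal] {s : ℕ}
    (hs : ∀ g, g ∉ A → Nat.card (A ⊓ centralizer ({g} : Set G) : Subgroup G) ≤ s) :
    Nat.card (ConjClasses G) * A.index ≤ Nat.card A + (A.index - 1) * (A.index + 1) * s := by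
  classical
  haveI := Fintype.ofFinite G
  have h1 : Nat.card (ConjClasses G) * Nat.card G =
      ∑ g : G, ∑ x : G, if x ∈ centralizer ({g} : Set G) then 1 else 0 := by
    rw [← card_comm_eq_card_conjClasses_mul_card, Nat.card_eq_fintype_card, Fintype.card_subtype,
      Finset.card_filter, Fintype.sum_prod_type_right]
    simp only [mem_centralizer_singleton_iff]
    rfl
  have hc : ∀ B : Subgroup G, ∑ x : G, (if x ∈ B then 1 else 0) = Nat.card B := fun B => by
    rw [Nat.card_eq_fintype_card, Fintype.card_subtype, Finset.card_filter]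
  have hA : (Finset.univ.filter (· ∈ A)).card = Nat.card A := by
    rw [Nat.card_eq_fintype_card, Fintype.card_subtype]
  have hA' : (Finset.univ.filter (· ∉ A)).card = (A.index - 1) * Nat.card A := by
    have := Finset.card_filter_add_card_filter_not (s := Finset.univ) (· ∈ A)
    rw [hA, Finset.card_univ, ← Nat.card_eq_fintype_card, ← A.index_mul_card] at this
    rw [Nat.sub_mul]
    omega
  have h2 : ∑ g ∈ Finset.univ.filter (· ∉ A), ∑ x : G,
      (if x ∈ centralizer ({g} : Set G) then 1 else 0) ≤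
      (A.index - 1) * Nat.card A * (s * A.index) := by
    rw [← hA', ← smul_eq_mul]
    refine Finset.sum_le_card_nsmul _ _ _ fun g hg => ?_
    rw [hc, ← card_inf_mul_relIndex A]
    exact Nat.mul_le_mul (hs g (Finset.mem_filter.1 hg).2)
      (Nat.le_of_dvd (Nat.pos_of_ne_zero index_ne_zero_of_finite) (relIndex_dvd_index_of_normal _ _))
  have h3 : ∑ g ∈ Finset.univ.filter (· ∈ A), ∑ x : G,
      (if x ∈ centralizer ({g} : Set G) then 1 else 0) ≤
      Nat.card A * Nat.card A + (A.index - 1) * Nat.card A * s := by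
    rw [Finset.sum_comm, ← Finset.sum_filter_add_sum_filter_not _ (· ∈ A), ← hA']
    nth_rewrite 1 [← hA]
    refine add_le_add (Finset.sum_le_card_nsmul _ _ _ fun x _ => ?_)
      (Finset.sum_le_card_nsmul _ _ _ fun x hx => ?_)
    · rw [← hA, ← Finset.card_filter]
      exact Finset.card_filter_le _ _
    · refine le_trans (le_of_eq ?_) (hs x (Finset.mem_filter.1 hx).2)
      rw [← hc, Finset.sum_filter]
      refine Finset.sum_congr rfl fun g _ => ?_
      simp only [mem_inf, mem_centralizer_singleton_iff, ite_and, eq_comm]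
  rw [← Finset.sum_filter_add_sum_filter_not _ (· ∈ A), ← A.index_mul_card] at h1
  refine Nat.le_of_mul_le_mul_right ?_ (Nat.card_pos (α := A))
  nlinarith

namespace TS
variable (h : TS ρ)
include h

theorem card_eq {v : V} (hv : v ≠ 0) : Nat.card G = (Nat.card V - 1) * Nat.card (stab ρ v) := by
  rw [← (stab ρ v).index_mul_card, ← card_ne_zero_subtype (0 : V), index]
  congr 1
  refine Nat.card_congr (Equiv.ofBijective (Quotient.lift
    (fun g => (⟨ρ g v, rep_ne_zero ρ g hv⟩ : {w : V // w ≠ 0})) fun a b e => Subtype.ext ?_) ⟨?_, ?_⟩)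
  · have := QuotientGroup.leftRel_apply.1 e
    rw [mem_stab, rep_mul, Representation.inv_apply_eq_iff] at this
    exact this.symm
  · rintro ⟨a⟩ ⟨b⟩ e
    refine QuotientGroup.eq.2 ?_
    rw [mem_stab, rep_mul, Representation.inv_apply_eq_iff]
    exact (congrArg Subtype.val e).symm
  · rintro ⟨w, hw⟩
    obtain ⟨g, rfl⟩ := h.trans v w hv hw
    exact ⟨QuotientGroup.mk g, rfl⟩

theorem irred_top : Irred ρ ⊤ := fun U hU => by
  refine or_iff_not_imp_left.2 fun h0 => eq_top_iff.2 fun w _ => ?_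
  obtain ⟨v, hv, hv0⟩ := Submodule.exists_mem_ne_zero_of_ne_bot h0
  by_cases hw : w = 0
  · exact hw ▸ U.zero_mem
  obtain ⟨g, rfl⟩ := h.trans v w hv0 hw
  exact hU g trivial v hv

theorem card_inf_stab (M : Subgroup G) [M.Normal] {v w : V} (hv : v ≠ 0) (hw : w ≠ 0) :
    Nat.card (M ⊓ stab ρ v : Subgroup G) = Nat.card (M ⊓ stab ρ w : Subgroup G) := by
  obtain ⟨g, rfl⟩ := h.trans v w hv hw
  rw [stab_apply, ← card_cj g, cj_inf, cj_normal]

theorem semi (M : Subgroup G) [M.Normal] (hM : ∀ a ∈ M, ∀ b ∈ M, a * b = b * a) : Semi ρ M := by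
  have h1 : ∀ {v w : V}, v ≠ 0 → w ≠ 0 → M ⊓ stab ρ v ≤ M ⊓ stab ρ w →
      M ⊓ stab ρ v = M ⊓ stab ρ w := fun hv hw hle =>
    eq_of_le_of_card_ge hle (h.card_inf_stab M hw hv).le
  have h2 : ∀ {v w : V}, v ≠ 0 → w ≠ 0 → M ⊓ stab ρ v = M ⊓ stab ρ w := by
    intro v w hv hw
    by_contra hne
    by_cases h0 : v + w = 0
    · refine hne (h1 hv hw fun a ha => ⟨ha.1, ?_⟩)
      rw [eq_neg_of_add_eq_zero_right h0]
      exact (map_neg _ _).trans (congrArg _ ha.2)
    have h3 : ∀ d ∈ M ⊓ stab ρ (v + w), ρ d v - v = 0 := fun d hd => by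
      by_contra hu
      have e : ρ d v - v = w - ρ d w := by
        have : ρ d (v + w) = v + w := hd.2
        rw [map_add] at this
        rw [sub_eq_sub_iff_add_eq_add, this, add_comm]
      refine hne ((h1 hv hu fun a ha => ⟨ha.1, ?_⟩).trans (h1 hw hu fun a ha => ⟨ha.1, ?_⟩).symm)
      · change ρ a _ = _
        rw [map_sub, ← rep_mul, hM a ha.1 d hd.1, rep_mul, show ρ a v = v from ha.2]
      · change ρ a _ = _
        rw [e, map_sub, ← rep_mul, hM a ha.1 d hd.1, rep_mul, show ρ a w = w from ha.2]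
    refine hne ((h1 h0 hv fun d hd => ⟨hd.1, sub_eq_zero.1 (h3 d hd)⟩).symm.trans
      (h1 h0 hw fun d hd => ⟨hd.1, ?_⟩))
    have : ρ d (v + w) = v + w := hd.2
    rw [map_add, sub_eq_zero.1 (h3 d hd)] at this
    exact add_left_cancel this
  refine fun a ha v hv e => h.faith a fun w => ?_
  by_cases hw : w = 0
  · rw [hw, map_zero]
  · exact ((h2 hv hw).le ⟨ha, e⟩).2

theorem caseA (M : Subgroup G) [hN : M.Normal] (hM : ∀ a ∈ M, ∀ b ∈ M, a * b = b * a)
    (hI : Irred ρ M) {v : V} (hv : v ≠ 0) : Goal ρ v := by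
  classical
  haveI : Nontrivial V := ⟨v, 0, hv⟩
  obtain ⟨E, _, _, ι, e, he, hadj⟩ := Ind.exists_field_of_irreducible
    (fun a b : M => Subtype.ext (hM a a.2 b b.2)) (ρ.comp M.subtype)
    fun U hU => hI U fun a ha => hU ⟨a, ha⟩
  haveI : Finite E := Finite.of_equiv _ e.toEquiv
  haveI : Finite (RingAut E) := Finite.of_injective _ DFunLike.coe_injective
  let T : G → E → E := fun g y => e (ρ g (e.symm y))
  have T1 : ∀ g, T g 1 ≠ 0 := fun g => by
    simpa [T] using rep_ne_zero ρ g (v := e.symm 1) (by simp)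
  have Tm : ∀ g k y, T (g * k) y = T g (T k y) := fun g k y => by simp [T]
  have To : ∀ y, T 1 y = y := fun y => by simp [T]
  have TM : ∀ (m : M) y, T m y = ι m * y := fun m y => by simpa using he m (e.symm y)
  have key : ∀ g x y, T g (x * y) = T g x / T g 1 * T g y := fun g x => by
    obtain ⟨c, hc⟩ : ∃ c, ∀ y, T g (x * y) = c * T g y := by
      induction (hadj ▸ Algebra.mem_top : x ∈ Algebra.adjoin (ZMod p) _)
        using Algebra.adjoin_induction with
      | mem x hx =>
        obtain ⟨m, rfl⟩ := hx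
        refine ⟨ι ⟨g * m * g⁻¹, hN.conj_mem _ m.2 g⟩, fun y => ?_⟩
        rw [← TM, ← TM, ← Tm, ← Tm, inv_mul_cancel_right]
      | algebraMap r => exact ⟨algebraMap _ _ r, fun y => by simp [T, ← Algebra.smul_def]⟩
      | add x y _ _ hx hy =>
        obtain ⟨c, hc⟩ := hx
        obtain ⟨d, hd⟩ := hy
        exact ⟨c + d, fun z => by rw [add_mul, add_mul, ← hc, ← hd]; simp [T]⟩
      | mul x y _ _ hx hy =>
        obtain ⟨c, hc⟩ := hx
        obtain ⟨d, hd⟩ := hy
        exact ⟨c * d, fun z => by rw [mul_assoc, hc, hd, mul_assoc]⟩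
    intro y
    rw [hc, ← mul_one x, hc, mul_div_cancel_right₀ _ (T1 g)]
  let σ : G → E → E := fun g x => T g x / T g 1
  have key1 : ∀ g x, T g x = σ g x * T g 1 := fun g x => (div_mul_cancel₀ _ (T1 g)).symm
  have σm : ∀ g k x, σ (g * k) x = σ g (σ k x) := fun g k x => by
    refine mul_right_cancel₀ (T1 (g * k)) ?_
    rw [← key1, Tm, Tm, key1 k x, key]
  have σo : ∀ x, σ 1 x = x := fun x => by simp [σ, To]
  let φ : G →* RingAut E :=
    { toFun := fun g =>
        { toFun := σ g
          invFun := σ g⁻¹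
          left_inv := fun x => by rw [← σm, inv_mul_cancel, σo]
          right_inv := fun x => by rw [← σm, mul_inv_cancel, σo]
          map_mul' := fun x y => by simp only [σ]; rw [key, mul_div_assoc]
          map_add' := fun x y => by simp [σ, T, add_div] }
      map_one' := RingEquiv.ext σo
      map_mul' := fun g k => RingEquiv.ext (σm g k) }
  have hA : ∀ a ∈ φ.ker, ∀ y, T a y = y * T a 1 := fun a ha y => by
    rw [key1, show σ a y = y from RingEquiv.congr_fun (MonoidHom.mem_ker.1 ha) y]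
  have hAi : ∀ a ∈ φ.ker, ∀ b ∈ φ.ker, T a 1 = T b 1 → a = b := fun a ha b hb e' => by
    refine mul_inv_eq_one.1 (h.faith _ fun w => ?_)
    obtain ⟨w, rfl⟩ := (ρ.apply_bijective b).2 w
    rw [← rep_mul, inv_mul_cancel_right]
    have := hA a ha (e w)
    rw [e', ← hA b hb] at this
    simpa [T] using this
  have hq : Nat.card V = Nat.card E := Nat.card_congr e.toEquiv
  have hidx : φ.ker.index = Nat.card φ.range := index_ker φ
  have hH : Nat.card (stab ρ v) ≤ φ.ker.index := by
    rw [hidx]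
    refine Nat.card_le_card_of_injective (φ.rangeRestrict.comp (stab ρ v).subtype)
      ((injective_iff_map_eq_one _).2 fun a ha => Subtype.ext ?_)
    have ha' : (a : G) ∈ φ.ker := congrArg Subtype.val ha
    refine hAi _ ha' _ (one_mem _) (mul_left_cancel₀ (show e v ≠ 0 by simpa using hv) ?_)
    rw [← hA _ ha', OneMemClass.coe_one, To, mul_one]
    simp [T, show ρ a v = v from a.2]
  have hG := h.card_eq hv
  have hk := card_conj_le (stab ρ v)
  have hq1 : 1 < Nat.card V := Finite.one_lt_card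
  rw [← φ.ker.index_mul_card] at hG
  have ha : Nat.card φ.ker ≤ Nat.card V - 1 := Nat.le_of_mul_le_mul_left
    (hG.trans_le ((Nat.mul_le_mul_left _ hH).trans_eq (mul_comm _ _)))
    (Nat.pos_of_ne_zero index_ne_zero_of_finite)
  by_cases h1 : φ.ker = ⊤
  · have := card_conj_le G
    rw [h1, card_top] at ha
    rw [h1, index_top] at hH
    refine ⟨by omega, fun _ => Or.inl ?_⟩
    have hm : ∀ a, a ∈ φ.ker := fun a => h1 ▸ mem_top a
    let u : G →* E :=
      { toFun := fun a => T a 1
        map_one' := To 1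
        map_mul' := fun a b => by rw [Tm, hA a (hm a), mul_comm] }
    exact isCyclic_of_injective_ringHom u fun a b => hAi a (hm a) b (hm b)
  haveI := Fintype.ofFinite G
  let s : G → ℕ := fun g => Nat.card (FixedPoints.subfield (zpowers (φ g)) E)
  obtain ⟨g₀, hg₀, hmax⟩ := Finset.exists_max_image (Finset.univ.filter (· ∉ φ.ker)) s (by
    by_contra hc
    refine h1 (eq_top_iff.2 fun g _ => by_contra fun hg => hc ⟨g, by simpa using hg⟩))
  have hs := card_conj_mul_le φ.ker (s := s g₀ - 1) fun g hg => by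
    refine le_trans ?_ (Nat.sub_le_sub_right (hmax g (by simpa using hg)) 1)
    rw [← card_ne_zero_subtype (0 : FixedPoints.subfield (zpowers (φ g)) E)]
    refine Nat.card_le_card_of_injective (fun a => ⟨⟨T a 1, fun β => ?_⟩, fun e' =>
      T1 a (congrArg Subtype.val e')⟩) fun a b e' => Subtype.ext
        (hAi _ a.2.1 _ b.2.1 (congrArg (fun z => z.1.1) e'))
    have : zpowers (φ g) ≤ MulAction.stabilizer (RingAut E) (T a 1) := zpowers_le.2 (by
      change T g (T a 1) / T g 1 = _
      rw [← Tm, ← mem_centralizer_singleton_iff.1 a.2.2, Tm, hA _ a.2.1,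
        mul_div_cancel_left₀ _ (T1 g)])
    exact this β.2
  have he2 : 2 ≤ φ.ker.index := by
    have := index_ne_zero_of_finite (H := φ.ker)
    have := mt index_eq_one.1 h1
    omega
  have f1 := card_fixed_pow φ.range
  have f2 := card_fixed_pow (zpowers (φ g₀))
  rw [← hidx] at f1
  have hg₀' : φ g₀ ≠ 1 := (Finset.mem_filter.1 hg₀).2
  have key2 := arith_field (S := s g₀) he2 Finite.one_lt_card (d := Nat.card (zpowers (φ g₀)))
    ((one_lt_card_iff_ne_bot _).2 (zpowers_ne_bot.2 hg₀'))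
    (hidx ▸ card_dvd_of_le (zpowers_le.2 ⟨g₀, rfl⟩)) (f2.trans f1.symm) (fun e1 e2 => by
      have := e2.trans (dvd_pow_self _ (show φ.ker.index ≠ 0 by omega))
      rw [f1, ← hq, card_pow p] at this
      rw [(Nat.prime_dvd_prime_iff_eq Nat.prime_two hp.out).1 (Nat.prime_two.dvd_of_dvd_pow this)]
        at e1
      exact h.cop (e1.trans (index_dvd_card _)))
  have hs0 : 0 < s g₀ := Nat.card_pos
  rw [f1, ← hq] at key2
  rw [Goal, ← φ.ker.index_mul_card]
  generalize Nat.card (ConjClasses G) = k at *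
  generalize Nat.card (ConjClasses (stab ρ v)) = k' at *
  generalize Nat.card (stab ρ v) = c at *
  generalize Nat.card φ.ker = a at *
  obtain ⟨S, hS⟩ : ∃ S, s g₀ = S + 1 := ⟨s g₀ - 1, by omega⟩
  obtain ⟨q, hq'⟩ : ∃ q, Nat.card V = q + 1 := ⟨Nat.card V - 1, by omega⟩
  obtain ⟨d, hd⟩ : ∃ d, φ.ker.index = d + 2 := ⟨φ.ker.index - 2, by omega⟩
  simp only [hS, hq', hd, Nat.add_sub_cancel, show d + 2 - 1 = d + 1 from rfl] at hH ha hs hG key2 ⊢
  have b1 : (k + k') * (d + 2) + (d + 2) ^ 2 ≤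
      q + 1 + (d + 1) * ((d + 2 + 1) * (S + 1)) + c * (d + 2) := by nlinarith
  rcases key2 with b2 | ⟨b2, b3⟩
  · have : k + k' < q + 1 := Nat.lt_of_mul_lt_mul_right (a := d + 2) (by nlinarith)
    exact ⟨by omega, fun _ => by omega⟩
  · refine ⟨Nat.le_of_mul_le_mul_right (c := d + 2) (by nlinarith) (by omega), fun b4 => Or.inr ?_⟩
    have : c = d + 2 := le_antisymm hH (Nat.le_of_mul_le_mul_right (c := d + 2) (by nlinarith)
      (by omega))
    rw [hG, this]
    rcases b3 with ⟨b, b'⟩ | ⟨b, b'⟩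
    · exact Or.inr ⟨b, by rw [b', show q = 8 by omega]⟩
    · exact Or.inl ⟨b, by rw [b', show q = 7 by omega]⟩

end TS

end Cfsg.Agent.Trans
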