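import Cfsg.Agent.Lib.Trans.Ppd

/-!
# The exceptional cases in dimension six
-/

set_option autoImplicit false
set_option linter.unusedSectionVars false
set_option linter.style.haveILetI false

namespace Cfsg.Agent.Trans

open Cfsg.Agent.Block Cfsg.Agent.Char Cfsg.Agent.Tr Subgroup Module

variable {G : Type*} [Group G] [Finite G]

theorem card_le_of_lt_sq {r : ℕ} [hr : Fact r.Prime] {L E : Subgroup G} (hc : Nat.card L = r ^ 2)
    (h : E < L) : Nat.card E ≤ r := by
  obtain ⟨i, -, hi⟩ := (Nat.dvd_prime_pow hr.out).1 (hc ▸ card_dvd_of_le h.le)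
  have := Fit.card_lt_of_lt h
  rw [hc, hi, Nat.pow_lt_pow_iff_right hr.out.one_lt] at this
  exact hi.trans_le ((Nat.pow_le_pow_right hr.out.pos (show i ≤ 1 by omega)).trans_eq (pow_one r))

theorem le_of_mem_prime {r : ℕ} [Fact r.Prime] {D K : Subgroup G} (hc : Nat.card D = r) {a : G}
    (ha : a ∈ D) (h1 : a ≠ 1) (hK : a ∈ K) : D ≤ K := fun d hd => by
  obtain ⟨m, hm⟩ := (zpowers_eq_top_of_prime_card hc (g := ⟨a, ha⟩)
    fun e => h1 (congrArg Subtype.val e)).ge (mem_top ⟨d, hd⟩)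
  exact (show a ^ m = d from congrArg Subtype.val hm) ▸ zpow_mem hK m

namespace FC
variable {p n r : ℕ} [hp : Fact p.Prime] [hr : Fact r.Prime] {χ : G → ℂ} (h : FC p χ n)
  (hn : n ≤ 6) (ho : orderOf (p : ZMod r) = 3) (hr' : 16 ≤ r ∨ r = 13 ∧ p = 3)
include h hn ho hr'

theorem le_of_sylow {D D' H : Subgroup G} (hD : SylowIn r D H) (hc : Nat.card D = r)
    (hD' : IsPGroup r D') (hle : D' ≤ H) : D' ≤ D :=
  hD.le_of_le_normalizer' hD' hle (hle.trans ((normal_subgroupOf_iff_le_normalizer hD.le).1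
    ((h.res H).dag_normal hn ho hr' hD.subgroupOf_top
      ((Nat.card_congr (subgroupOfEquivOfLe hD.le).toEquiv).trans hc))))

theorem eq_of_central {L L' D : Subgroup G} (hL : SylowIn r L ⊤) (hL' : SylowIn r L' ⊤)
    (hc : Nat.card L = r ^ 2) (hD : D ≤ L) (hDc : Nat.card D = r) {y : G} (hy : y ∈ center G)
    (hyL : y ∈ L) (hyL' : y ∈ L') (hyD : y ∉ D) : L' = L := by
  letI : CommGroup L := { (inferInstance : Group L) with
    mul_comm := fun a b =>
      Subtype.ext (h.comm_of_pgroup (by omega) hL.isPGroup a a.2 b b.2) }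
  let f : G →* L := MonoidHom.transfer (MonoidHom.id L)
  let K := (D.subgroupOf L).comap f
  haveI : K.Normal := Normal.comap inferInstance f
  have hyK : y ∉ K := fun e => by
    have h1 : f y = _ := MonoidHom.transfer_eq_pow (MonoidHom.id L) y fun k g _ => by
      rw [mul_assoc, ← mem_center_iff.1 (pow_mem hy k) g, inv_mul_cancel_left]
    have h2 : y ^ L.index ∈ D := by
      have : f y ∈ D.subgroupOf L := e
      rwa [h1] at this
    obtain ⟨k, hk⟩ := exists_orderOf_of_mem hL.isPGroup hyL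
    refine hyD (zpowers_le.2 h2 (mem_zpowers_pow_iff.2 ?_))
    rw [hk]
    exact (((Nat.Prime.coprime_iff_not_dvd hr.out).2
      (relIndex_top_right L ▸ hL.not_dvd)).symm).pow_right k
  have hK : K.relIndex L ≤ r := by
    have h1 := card_mul_relIndex hD
    rw [hc, hDc, sq] at h1
    refine Nat.le_of_dvd hr.out.pos ((relIndex_dvd_index_of_normal _ _).trans ?_)
    rw [index_comap, ← Nat.eq_of_mul_eq_mul_left hr.out.pos h1]
    exact relIndex_dvd_index_of_normal _ _
  have hE := hL.inf_of_le_normalizer (N := K) le_top le_normalizer_of_normal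
  have hE' := hL'.inf_of_le_normalizer (N := K) le_top le_normalizer_of_normal
  have hEc : Nat.card (L ⊓ K : Subgroup G) = r := by
    refine le_antisymm (card_le_of_lt_sq hc (lt_of_le_of_ne inf_le_left fun e =>
      hyK (e.ge hyL).2)) ?_
    have := card_mul_relIndex (inf_le_left : L ⊓ K ≤ L)
    rw [inf_relIndex_left, hc, sq] at this
    exact Nat.le_of_mul_le_mul_right (this.ge.trans (Nat.mul_le_mul_left _ hK)) hr.out.pos
  have h1 := eq_of_le_of_card_ge (h.le_of_sylow hn ho hr' hE hEc hE'.isPGroup hE'.le)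
    (hE.card_eq hE').le
  refine hL.eq_of_le hL'.isPGroup (inf_eq_left.1 (eq_of_le_of_not_lt inf_le_left fun e => ?_)) le_top
  have := Fit.card_lt_of_lt (lt_of_le_of_ne (le_inf inf_le_left (h1.ge.trans inf_le_left) :
    L ⊓ K ≤ L ⊓ L') fun e => hyK (e.ge ⟨hyL, hyL'⟩).2)
  have := card_le_of_lt_sq hc e
  omega

theorem eq_of_mem {L L' D : Subgroup G} (hL : SylowIn r L ⊤) (hL' : SylowIn r L' ⊤)
    (hc : Nat.card L = r ^ 2) (hD : D ≤ L) (hDc : Nat.card D = r) {y : G}
    (hyL : y ∈ L) (hyL' : y ∈ L') (hyD : y ∉ D) : L' = L := by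
  have h1 : L ≤ centralizer {y} := fun a ha => mem_centralizer_singleton_iff.2
    (h.comm_of_pgroup (by omega) hL.isPGroup a ha y hyL)
  have h2 : L' ≤ centralizer {y} := fun a ha => mem_centralizer_singleton_iff.2
    (h.comm_of_pgroup (by omega) hL'.isPGroup a ha y hyL')
  have := (h.res (centralizer {y})).eq_of_central hn ho hr' (hL.mono h1 le_top).subgroupOf_top
    (hL'.mono h2 le_top).subgroupOf_top
    ((Nat.card_congr (subgroupOfEquivOfLe h1).toEquiv).trans hc) (subgroupOf_mono _ hD)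
    ((Nat.card_congr (subgroupOfEquivOfLe (hD.trans h1)).toEquiv).trans hDc) (y := ⟨y, h1 hyL⟩)
    (mem_center_iff.2 fun g => Subtype.ext (mem_centralizer_singleton_iff.1 g.2)) hyL hyL' hyD
  rwa [subgroupOf_inj, inf_eq_left.2 h1, inf_eq_left.2 h2] at this

end FC

variable {p : ℕ} [hp : Fact p.Prime] {V : Type*} [AddCommGroup V] [Module (ZMod p) V] [Finite V]
  {ρ : Representation (ZMod p) G V} {χ : G → ℂ} {v : V}

/-- The fixed points of a subgroup. -/
def fixS (ρ : Representation (ZMod p) G V) (D : Subgroup G) : Submodule (ZMod p) V where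
  carrier := {u | D ≤ stab ρ u}
  add_mem' ha hb d hd := (map_add _ _ _).trans (congrArg₂ _ (ha hd) (hb hd))
  zero_mem' _ _ := map_zero _
  smul_mem' c _ ha d hd := (map_smul _ _ _).trans (congrArg _ (ha hd))

theorem le_card_fixS (hG : ¬ p ∣ Nat.card G) (hn : finrank (ZMod p) V = 6) (hv : v ≠ 0) {r : ℕ}
    [hr : Fact r.Prime] (ho : orderOf (p : ZMod r) = 3) {D : Subgroup G} (hc : Nat.card D = r)
    (hD : D ≤ stab ρ v) : p ^ 3 ≤ Nat.card (fixS ρ D) := by
  classical
  have h1 := card_dvd_of_free (A := D) (fun a w => ρ a w) (rep_one ρ) (fun a b => rep_mul ρ _ _)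
    (· ∉ fixS ρ D) (fun a w hw e => hw fun d hd => (ρ.apply_bijective a).1 (by
      have := e (mul_mem (mul_mem a.2 hd) (inv_mem a.2))
      rwa [mem_stab, ← rep_mul, inv_mul_cancel_right, rep_mul] at this))
    fun a w hw e => Subtype.ext (by_contra fun h1 => hw (le_of_mem_prime hc a.2 h1 e))
  haveI := Fintype.ofFinite V
  have h2 := Submodule.finrank_le (fixS ρ D)
  have h3 : finrank (ZMod p) (fixS ρ D) ≠ 0 := fun e =>
    hv ((Submodule.finrank_eq_zero.1 e).le hD)
  rw [Nat.card_eq_fintype_card (α := {x // x ∉ fixS ρ D}), Fintype.card_subtype_compl,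
    ← Nat.card_eq_fintype_card, ← Nat.card_eq_fintype_card, card_pow p V, card_pow p (fixS ρ D),
    ← Nat.add_sub_cancel' h2, pow_add, ← Nat.mul_sub_one, hc, hn] at h1
  have h4 := (nat_dvd_iff hp.out.pos).1 ((Nat.Coprime.dvd_mul_left (Nat.Coprime.pow_right _
    ((Nat.coprime_primes hr.out hp.out).2 fun e => hG
      (e ▸ hc ▸ card_subgroup_dvd_card D)))).1 h1)
  rw [card_pow p]
  rw [ho] at h4
  exact Nat.pow_le_pow_right hp.out.pos (by omega)

namespace TS
variable (h : TS ρ) (hn : finrank (ZMod p) V = 6) (hv : v ≠ 0) (hχ : FC p χ 6) {r : ℕ}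
  [hr : Fact r.Prime] (ho : orderOf (p : ZMod r) = 3) (hr' : 16 ≤ r ∨ r = 13 ∧ p = 3)
  (h1 : ¬ r ^ 2 ∣ p ^ 6 - 1) (h2 : p ^ 3 + 1 < r ^ 2)
include h hn hv hχ ho hr' h1 h2

theorem not_sq {L : Subgroup G} (hL : SylowIn r L ⊤) : Nat.card L ≠ r ^ 2 := fun hc => by
  have hd : r ∣ p ^ 6 - 1 := (nat_dvd_iff hp.out.pos).2 (ho ▸ by norm_num)
  have k1 : ∀ {w : V} {D D' : Subgroup G}, w ≠ 0 → D ≤ stab ρ w → D' ≤ stab ρ w →
      Nat.card D = r → Nat.card D' = r → D' = D := fun {w D D'} hw e1 e2 e3 e4 => by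
    refine eq_of_le_of_card_ge (hχ.le_of_sylow le_rfl ho hr' ⟨e1, .of_card (e3.trans
      (pow_one r).symm), fun e => hL.not_dvd ?_⟩ e3 (.of_card (e4.trans (pow_one r).symm)) e2)
      (e3.trans e4.symm).le
    have e5 := h.card_eq' hn hw
    rw [← L.card_mul_index, hc, ← card_mul_relIndex e1, e3] at e5
    rw [relIndex_top_right, ← Nat.mul_dvd_mul_iff_left (pow_pos hr.out.pos 2), e5, sq, mul_assoc]
    exact mul_dvd_mul hd (mul_dvd_mul_left _ e)
  obtain ⟨⟨x, hxv⟩, hx⟩ := exists_prime_orderOf_dvd_card' (G := stab ρ v) r (by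
    by_contra e
    refine h1 ((Nat.Coprime.dvd_mul_right (Nat.Coprime.pow_left _
      ((Nat.Prime.coprime_iff_not_dvd hr.out).2 e))).1 ?_)
    rw [← h.card_eq' hn hv, ← hc]
    exact card_subgroup_dvd_card L)
  replace hx : orderOf x = r := (orderOf_coe _).trans hx
  have hab := hχ.comm_of_pgroup (by omega) hL.isPGroup
  obtain ⟨g, hg⟩ : ∃ g, g * x * g⁻¹ ∉ L := by
    by_contra! e
    have : normalClosure {x} ≤ L := (closure_le _).2 fun y hy => by
      obtain ⟨z, hz, hy⟩ := Group.mem_conjugatesOfSet_iff.1 hy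
      obtain ⟨g, hg⟩ := isConj_iff.1 hy
      exact hg ▸ (show z = x from hz) ▸ e g
    have := h.semi (normalClosure {x}) (fun a ha b hb => hab a (this ha) b (this hb)) x
      (subset_normalClosure rfl) v hv hxv
    rw [this, orderOf_one] at hx
    exact hr.out.one_lt.ne hx
  set D := zpowers (g * x * g⁻¹)
  have hD : Nat.card D = r := by rw [Nat.card_zpowers, Tr.orderOf_conj, hx]
  have k2 := le_card_fixS (ρ := ρ) h.cop hn (rep_ne_zero ρ g hv) ho hD
    (zpowers_le.2 (stab_apply ρ g v ▸ conj_mem_cj.2 hxv))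
  have k3 := Nat.card_le_card_of_injective (fun t : L × {u : fixS ρ D // u ≠ 0} =>
    (⟨ρ t.1 t.2.1, rep_ne_zero ρ _ fun e => t.2.2 (Subtype.ext e)⟩ : {u : V // u ≠ 0})) (by
      rintro ⟨y, u, hu⟩ ⟨y', u', hu'⟩ e
      have e1 : ρ (y'⁻¹ * y : L) u = u' := by
        rw [coe_mul, rep_mul, coe_inv, Representation.inv_apply_eq_iff]
        exact congrArg Subtype.val e
      have e2 : y'⁻¹ * y = 1 := by
        generalize y'⁻¹ * y = z at e1
        by_contra hz
        replace hz : (z : G) ≠ 1 := fun e => hz (Subtype.ext e)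
        have e3 := cj_eq_iff.1 (k1 (fun e => hu' (Subtype.ext e)) u'.2
          (e1 ▸ stab_apply ρ z u ▸ Tr.cj_mono _ u.2) hD ((card_cj _ _).trans hD))
        obtain ⟨k, hk⟩ := exists_orderOf_of_mem hL.isPGroup z.2
        obtain ⟨L', hL', e4⟩ := exists_sylowIn_ge (isPGroup_sup_of_le_normalizer
          (isPGroup_zpowers_of_orderOf hk) (.of_card (hD.trans (pow_one r).symm))
          (zpowers_le.2 e3)) le_top
        refine hg ((hχ.eq_of_mem le_rfl ho hr' hL' hL ((hL'.card_eq hL).trans hc)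
          (le_sup_right.trans e4) hD (e4 (mem_sup_left (mem_zpowers _))) z.2 fun e5 =>
            hg (le_of_mem_prime hD e5 hz z.2 (mem_zpowers _))).ge
          (e4 (mem_sup_right (mem_zpowers _))))
      rw [e2, coe_one, rep_one] at e1
      exact Prod.ext (inv_mul_eq_one.1 e2).symm (Subtype.ext (Subtype.ext e1)))
  rw [Nat.card_prod, card_ne_zero_subtype, card_ne_zero_subtype, hc, card_pow p V, hn] at k3
  have k4 : 1 < p ^ 3 := Nat.one_lt_pow (by norm_num) hp.out.one_lt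
  have k5 := (Nat.mul_le_mul h2 (Nat.sub_le_sub_right k2 1)).trans k3
  rw [show p ^ 6 = p ^ 3 * p ^ 3 by ring] at k5
  obtain ⟨t, ht⟩ : ∃ t, p ^ 3 = t + 1 := ⟨p ^ 3 - 1, by omega⟩
  rw [ht] at k4 k5
  rw [Nat.add_sub_cancel, Nat.le_sub_iff_add_le (by nlinarith)] at k5
  nlinarith

theorem goal_six (hf : Fix ρ χ) (h3 : ¬ r ^ 3 ∣ ∏ i : Fin 6, (p ^ 6 - p ^ (i : ℕ)))
    (h7 : orderOf (p : ZMod 7) = 6) (h8 : ¬ 7 ∣ r - 1) : Goal ρ v := by
  obtain ⟨L, hL⟩ := exists_sylowIn (p := r) (⊤ : Subgroup G)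
  have hc : Nat.card L = r := by
    obtain ⟨k, hk⟩ := IsPGroup.iff_card.1 hL.isPGroup
    have e1 := h.not_sq hn hv hχ ho hr' h1 h2 hL
    have e2 := hL.ne_bot (card_top (G := G) ▸ h.dvd_card hn hv (ho ▸ by norm_num))
    have e3 := (card_subgroup_dvd_card L).trans (h.card_dvd_GL hn)
    rw [Ne, ← card_eq_one] at e2
    rw [hk] at e1 e2 e3 ⊢
    rcases k with _ | _ | _ | k
    · exact absurd rfl e2
    · exact pow_one r
    · exact absurd rfl e1
    · exact absurd ((pow_dvd_pow r (by omega)).trans e3) h3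
  haveI := hχ.dag_normal le_rfl ho hr' hL hc
  haveI : Fact (Nat.Prime 7) := ⟨by norm_num⟩
  obtain ⟨P, hP⟩ := exists_sylowIn (p := 7) (centralizer (L : Set G))
  have hN := (normal_subgroupOf_iff_le_normalizer hP.le).1 ((hχ.res _).ppd_normal h7 (by norm_num)
    hP.subgroupOf_top (Or.inr fun ξ hξ => by have := h.deg_cent hχ hf ho hc ξ hξ; omega))
  haveI : P.Normal := normalizer_eq_top_iff.1 (eq_top_iff.2 fun g _ => by
    obtain ⟨c, hc, y, hy, rfl⟩ := hP.frattini (x := g) (le_normalizer_of_normal (mem_top g))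
    exact mul_mem (hN hc) hy)
  refine h.goal_of_normal hn hv h7 P (hχ.comm_of_pgroup (by norm_num) hP.isPGroup)
    (hP.isPGroup.card_eq_or_dvd.resolve_left fun e => hP.ne_bot ?_ (card_eq_one.1 e))
  exact ((Nat.Prime.dvd_mul Fact.out).1 (card_eq_cent_mul L ▸ h.dvd_card hn hv h7.dvd)).resolve_right
    fun e => h8 (e.trans (ee_dvd_pred hc))

end TS

end Cfsg.Agent.Trans
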