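import Cfsg.Agent.Lib.Trans.Setup
import Cfsg.Agent.Lib.Fit.Fitting

/-!
# Transitive coprime linear groups of dimension two
-/

set_option autoImplicit false
set_option linter.unusedSectionVars false
set_option linter.style.haveILetI false

namespace Cfsg.Agent.Trans

open Cfsg.Agent.Block Cfsg.Agent.Char Cfsg.Agent.Tr Subgroup Module

variable {G : Type*} [Group G] [Finite G]

theorem norm_of_central (φ : IrrCharacter G) {z : G} (hz : ∀ g, g * z = z * g) :
    ‖φ.1 z‖ = ‖φ.1 1‖ := by
  have hj : ∀ (y : zpowers z) g, g * (zpowers z).subtype y = (zpowers z).subtype y * g :=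
    fun ⟨_, m, rfl⟩ g => Commute.zpow_right (hz g) m
  have := cch_mul φ _ hj ⟨z, mem_zpowers z⟩ 1
  rw [mul_one] at this
  rw [show φ.1 z = _ from this, norm_mul, norm_irr_of_one (cch_one φ _ hj), one_mul]

theorem card_conj_le_of {m c : ℕ}
    (h : ∀ g, g ∉ center G → m * Nat.card (centralizer ({g} : Set G)) ≤ c) :
    m * Nat.card (ConjClasses G) * Nat.card G + Nat.card (center G) * c ≤
      m * Nat.card (center G) * Nat.card G + Nat.card G * c := by
  classical
  haveI := Fintype.ofFinite G
  have h1 : Nat.card (ConjClasses G) * Nat.card G =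
      ∑ g : G, Nat.card (centralizer ({g} : Set G)) := by
    rw [← card_comm_eq_card_conjClasses_mul_card, Nat.card_eq_fintype_card, Fintype.card_subtype,
      Finset.card_filter, Fintype.sum_prod_type_right]
    refine Finset.sum_congr rfl fun g _ => ?_
    rw [Nat.card_eq_fintype_card, Fintype.card_subtype, Finset.card_filter]
    simp only [mem_centralizer_singleton_iff]
    rfl
  have hA : (Finset.univ.filter (· ∈ center G)).card = Nat.card (center G) := by
    rw [Nat.card_eq_fintype_card, Fintype.card_subtype]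
  have hA' := Finset.card_filter_add_card_filter_not (s := Finset.univ) (· ∈ center G)
  have h2 := Finset.sum_le_card_nsmul (Finset.univ.filter (· ∈ center G))
    (fun g => m * Nat.card (centralizer ({g} : Set G))) (m * Nat.card G)
    fun g _ => Nat.mul_le_mul_left _ (card_le_card_group _)
  have h3 := Finset.sum_le_card_nsmul (Finset.univ.filter (· ∉ center G))
    (fun g => m * Nat.card (centralizer ({g} : Set G))) c fun g hg => h g (Finset.mem_filter.1 hg).2
  rw [mul_assoc, h1, Finset.mul_sum, ← Finset.sum_filter_add_sum_filter_not _ (· ∈ center G)]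
  rw [hA, Finset.card_univ, ← Nat.card_eq_fintype_card] at hA'
  rw [hA, smul_eq_mul] at h2
  rw [smul_eq_mul] at h3
  rw [← hA'] at h2 ⊢
  nlinarith

theorem klein_sum {ι : Type*} (s : Finset ι) (u : ι → ℚ)
    (h : ∀ i ∈ s, u i = 1 / 4 ∨ (1 / 3 ≤ u i ∧ u i ≤ 1 / 2) ∨ 2 / 3 ≤ u i) :
    ∑ i ∈ s, u i = 0 ∨ (1 / 4 ≤ ∑ i ∈ s, u i ∧ ∑ i ∈ s, u i ≤ 1 / 2) ∨ 7 / 12 ≤ ∑ i ∈ s, u i := by
  classical
  suffices ∑ i ∈ s, u i = 0 ∨ ∑ i ∈ s, u i = 1 / 4 ∨
      (1 / 3 ≤ ∑ i ∈ s, u i ∧ ∑ i ∈ s, u i ≤ 1 / 2) ∨ 7 / 12 ≤ ∑ i ∈ s, u i by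
    rcases this with e | e | e | e
    · exact Or.inl e
    · exact Or.inr (Or.inl (by rw [e]; norm_num))
    · exact Or.inr (Or.inl ⟨by linarith [e.1], e.2⟩)
    · exact Or.inr (Or.inr e)
  induction s using Finset.induction_on with
  | empty => simp
  | insert a s ha ih =>
    rw [Finset.sum_insert ha]
    have h1 := h a (Finset.mem_insert_self _ _)
    rcases ih fun i hi => h i (Finset.mem_insert_of_mem hi) with e | e | e | e
    · rw [e, add_zero]
      rcases h1 with h1 | h1 | h1
      · exact Or.inr (Or.inl h1)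
      · exact Or.inr (Or.inr (Or.inl h1))
      · exact Or.inr (Or.inr (Or.inr (by linarith)))
    · rcases h1 with h1 | h1 | h1
      · exact Or.inr (Or.inr (Or.inl (by rw [e, h1]; norm_num)))
      · exact Or.inr (Or.inr (Or.inr (by linarith [h1.1])))
      · exact Or.inr (Or.inr (Or.inr (by linarith)))
    · refine Or.inr (Or.inr (Or.inr ?_))
      rcases h1 with h1 | h1 | h1 <;> [skip; replace h1 := h1.1; skip] <;> linarith [e.1]
    · refine Or.inr (Or.inr (Or.inr ?_))
      rcases h1 with h1 | h1 | h1 <;> [skip; replace h1 := h1.1; skip] <;> linarith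

theorem klein (h1 : ∀ g, g ∉ center G → ∀ a ∈ centralizer ({g} : Set G),
      ∀ b ∈ centralizer ({g} : Set G), a * b = b * a)
    (h2 : ∀ g, g ∉ center G → (centralizer ({g} : Set G)).relIndex
      (normalizer (centralizer ({g} : Set G) : Set G)) ≤ 2)
    (h3 : ∀ g, g ∉ center G → 3 ≤ (centralizer ({g} : Set G)).index) {g₀ : G}
    (hg₀ : g₀ ∉ center G) : Nat.card (centralizer ({g₀} : Set G)) ≤ 5 * Nat.card (center G) := by
  classical
  haveI := Fintype.ofFinite G
  let A : G → Subgroup G := fun g => centralizer ({g} : Set G)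
  have hA : ∀ g, g ∈ A g := fun g => mem_centralizer_singleton_iff.2 rfl
  have hZ : ∀ {y : G} (h : G), y ∉ center G → h * y * h⁻¹ ∉ center G := fun h hy e =>
    hy (by simpa [mul_assoc] using Normal.conj_mem inferInstance _ e h⁻¹)
  have k1 : ∀ {g y : G}, g ∉ center G → y ∉ center G → y ∈ A g → A y = A g := fun hg hy e =>
    le_antisymm (fun a ha => mem_centralizer_singleton_iff.2 (h1 _ hy _ ha _
      (mem_centralizer_singleton_iff.2 (mem_centralizer_singleton_iff.1 e).symm)))
      fun a ha => mem_centralizer_singleton_iff.2 (h1 _ hg _ ha _ e)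
  have k2 : ∀ {g y h : G}, g ∉ center G → y ∉ center G → h * y * h⁻¹ ∈ A g →
      cj h (A y) = A g := fun hg hy e =>
    (centralizer_singleton_conj _ _).symm.trans (k1 hg (hZ _ hy) e)
  let U : G → Finset G := fun g => Finset.univ.filter fun y => y ∉ center G ∧ ∃ h, h * y * h⁻¹ ∈ A g
  have hU : ∀ {g y : G}, y ∈ U g ↔ y ∉ center G ∧ ∃ h, h * y * h⁻¹ ∈ A g := by simp [U]
  have k3 : ∀ {g y : G}, g ∉ center G → y ∈ U g → U y = U g := fun {g y} hg hy => by
    obtain ⟨hy, h, e⟩ := hU.1 hy
    ext w
    rw [hU, hU, ← k2 hg hy e]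
    refine and_congr_right fun _ => ⟨fun ⟨k, hk⟩ => ⟨h * k, ?_⟩, fun ⟨k, hk⟩ => ⟨h⁻¹ * k, ?_⟩⟩
    · simpa [mul_assoc] using (conj_mem_cj (g := h)).2 hk
    · simpa [mul_assoc] using mem_cj.1 hk
  have hc : ∀ (B : Subgroup G) [DecidablePred (· ∈ B)],
      (Finset.univ.filter (· ∈ B)).card = Nat.card B := fun B _ => by
    rw [Nat.card_eq_fintype_card, Fintype.card_subtype]
  have k4 : ∀ g, g ∉ center G → (U g).card * Nat.card (normalizer (A g : Set G)) +
      Nat.card G * Nat.card (center G) = Nat.card G * Nat.card (A g) := fun g hg => by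
    have e1 : ∀ h : G, (Finset.univ.filter fun y => y ∉ center G ∧ h * y * h⁻¹ ∈ A g).card +
        Nat.card (center G) = Nat.card (A g) := fun h => by
      rw [← card_cj h⁻¹ (A g), ← hc, ← hc, ← Finset.card_union_of_disjoint
        (Finset.disjoint_filter.2 fun _ _ a b => a.1 b)]
      congr 1
      ext y
      simp only [Finset.mem_union, Finset.mem_filter, Finset.mem_univ, true_and, mem_cj_inv]
      refine ⟨fun e => e.elim And.right fun e => center_le_centralizer _
        (Normal.conj_mem inferInstance _ e h), fun e => ?_⟩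
      by_cases hy : y ∈ center G
      exacts [Or.inr hy, Or.inl ⟨hy, e⟩]
    have e2 : ∀ y ∈ U g, (Finset.univ.filter fun h => h * y * h⁻¹ ∈ A g).card =
        Nat.card (normalizer (A g : Set G)) := fun y hy => by
      obtain ⟨hy, h₀, e⟩ := hU.1 hy
      rw [← hc]
      refine Finset.card_bijective (· * h₀⁻¹) (Group.mulRight_bijective _) fun h => ?_
      simp only [Finset.mem_filter, Finset.mem_univ, true_and]
      rw [← cj_eq_iff, cj_mul, ← k2 hg hy e, cj_inv_cj, k2 hg hy e]
      exact ⟨k2 hg hy, fun e => e ▸ conj_mem_cj.2 (hA y)⟩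
    have e3 : ∑ y ∈ U g, (Finset.univ.filter fun h => h * y * h⁻¹ ∈ A g).card =
        ∑ h : G, (Finset.univ.filter fun y => y ∉ center G ∧ h * y * h⁻¹ ∈ A g).card := by
      simp only [Finset.card_filter]
      rw [Finset.sum_comm]
      refine Finset.sum_congr rfl fun h _ => ?_
      rw [Finset.sum_filter]
      refine Finset.sum_congr rfl fun y _ => ?_
      by_cases e : h * y * h⁻¹ ∈ A g
      · simp [e, show ∃ h, h * y * h⁻¹ ∈ A g from ⟨h, e⟩]
      · simp [e]
    rw [← smul_eq_mul, ← Finset.sum_const, ← Finset.sum_congr rfl e2, e3, Nat.card_eq_fintype_card,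
      ← Finset.card_univ, ← smul_eq_mul, ← smul_eq_mul, ← Finset.sum_const, ← Finset.sum_const,
      ← Finset.sum_add_distrib]
    exact Finset.sum_congr rfl fun h _ => e1 h
  have hD : (0 : ℚ) < Nat.card G := Nat.cast_pos.2 Nat.card_pos
  have hz : (0 : ℚ) < Nat.card (center G) := Nat.cast_pos.2 Nat.card_pos
  have k5 : ∀ g, g ∉ center G → ∃ a : ℕ, 2 ≤ a ∧ Nat.card (A g) = Nat.card (center G) * a ∧
      (((U g).card : ℚ) / Nat.card G = 1 - 1 / a ∨
        ((U g).card : ℚ) / Nat.card G = (1 - 1 / a) / 2) := fun g hg => by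
    obtain ⟨a, ha⟩ := card_dvd_of_le (center_le_centralizer {g})
    have e1 : Nat.card (center G) < Nat.card (A g) :=
      Fit.card_lt_of_lt (lt_of_le_of_ne (center_le_centralizer _) fun e => hg (e ▸ hA g))
    have e2 := k4 g hg
    have e3 := h2 g hg
    have e4 : (A g).relIndex (normalizer (A g : Set G)) ≠ 0 := index_ne_zero_of_finite
    have ha2 : 2 ≤ a := by
      rw [ha] at e1
      by_contra hc
      nlinarith [Nat.mul_le_mul_left (Nat.card (center G)) (show a ≤ 1 by omega)]
    refine ⟨a, ha2, ha, ?_⟩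
    rw [← card_mul_relIndex le_normalizer, show Nat.card (A g) = _ from ha] at e2
    have e5 := congrArg (Nat.cast (R := ℚ)) e2
    have : (0 : ℚ) < a := Nat.cast_pos.2 (by omega)
    push_cast at e5
    change (A g).relIndex (normalizer (A g : Set G)) ≤ 2 at e3
    obtain e | e : (A g).relIndex (normalizer (A g : Set G)) = 1 ∨
        (A g).relIndex (normalizer (A g : Set G)) = 2 := by omega
    · rw [e] at e5
      refine Or.inl ?_
      field_simp
      exact mul_left_cancel₀ hz.ne' (by push_cast at e5; linarith)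
    · rw [e] at e5
      refine Or.inr ?_
      field_simp
      exact mul_left_cancel₀ hz.ne' (by push_cast at e5; linarith)
  let S := Finset.univ.filter (· ∉ center G)
  have k6 : S.card = ∑ W ∈ S.image U, W.card := by
    rw [Finset.card_eq_sum_card_image U]
    refine Finset.sum_congr rfl fun W hW => ?_
    obtain ⟨g, hg, rfl⟩ := Finset.mem_image.1 hW
    congr 1
    ext y
    simp only [S, Finset.mem_filter, Finset.mem_univ, true_and] at hg ⊢
    exact ⟨fun ⟨e1, e2⟩ => e2 ▸ hU.2 ⟨e1, 1, by simpa using hA y⟩,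
      fun e => ⟨(hU.1 e).1, k3 hg e⟩⟩
  have k7 := klein_sum ((S.image U).erase (U g₀)) (fun W => (W.card : ℚ) / Nat.card G) fun W hW => by
    obtain ⟨g, hg, rfl⟩ := Finset.mem_image.1 (Finset.mem_of_mem_erase hW)
    obtain ⟨a, ha, -, e⟩ := k5 g (Finset.mem_filter.1 hg).2
    rcases ha.eq_or_lt with rfl | ha
    · rcases e with e | e <;> rw [e] <;> norm_num
    · have e1 : (1 : ℚ) / a ≤ 1 / 3 := one_div_le_one_div_of_le (by norm_num) (by exact_mod_cast ha)
      have e2 : (0 : ℚ) ≤ 1 / a := by positivity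
      rcases e with e | e <;> rw [e]
      · exact Or.inr (Or.inr (by linarith))
      · exact Or.inr (Or.inl ⟨by linarith, by linarith⟩)
  obtain ⟨a, -, ha, e⟩ := k5 g₀ hg₀
  by_contra hcon
  have ha6 : 6 ≤ a := by
    by_contra hc
    exact hcon (ha.trans_le (by nlinarith))
  have k8 := Finset.card_filter_add_card_filter_not (s := Finset.univ) (· ∈ center G)
  rw [hc, show (Finset.univ.filter (· ∉ center G)).card = _ from k6, Finset.card_univ,
    ← Nat.card_eq_fintype_card, ← Finset.add_sum_erase _ _ (Finset.mem_image_of_mem U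
      (Finset.mem_filter.2 ⟨Finset.mem_univ _, hg₀⟩))] at k8
  have k9 := congrArg (fun n : ℕ => (n : ℚ) / Nat.card G) k8
  simp only [Nat.cast_add, Nat.cast_sum, add_div, Finset.sum_div, div_self hD.ne'] at k9
  have e1 : (1 : ℚ) / a ≤ 1 / 6 := one_div_le_one_div_of_le (by norm_num) (by exact_mod_cast ha6)
  have ha0 : (0 : ℚ) < a := Nat.cast_pos.2 (by omega)
  have e2 : 0 < (Nat.card (center G) : ℚ) / Nat.card G := by positivity
  have e3 : (Nat.card (center G) : ℚ) / Nat.card G ≤ 1 / a / 3 := by
    have := Nat.mul_le_mul_right (Nat.card (A g₀)) (h3 g₀ hg₀)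
    rw [index_mul_card, ha] at this
    rw [div_div, div_le_div_iff₀ hD (by positivity)]
    have : (3 * (Nat.card (center G) * a) : ℚ) ≤ Nat.card G := by exact_mod_cast this
    linarith
  have e4 : (0 : ℚ) < 1 / a := by positivity
  rcases e with e | e <;> rw [e] at k9 <;> rcases k7 with k | k | k <;>
    linarith

namespace FC
variable {p n : ℕ} [hp : Fact p.Prime] {χ : G → ℂ}

theorem mem_center_of_norm (h : FC p χ n) {g : G} (hg : ‖χ g‖ = ‖χ 1‖) : g ∈ center G :=
  mem_center_iff.2 fun a => by
    have := h.faith _ (apply_commutator_of_norm_eq h.char hg a)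
    rwa [mul_inv_eq_one, mul_inv_eq_iff_eq_mul] at this

theorem card_center_dvd (h : FC p χ n) (hi : IsIrrCharacter G χ) :
    Nat.card (center G) ∣ p - 1 := by
  have hj : ∀ (y : center G) g, g * (center G).subtype y = (center G).subtype y * g :=
    fun y g => mem_center_iff.1 y.2 g
  let ω := cch ⟨χ, hi⟩ _ hj
  have h1 : ∀ y : center G, χ y = ω.1 y * χ 1 := fun y => by
    simpa using cch_mul ⟨χ, hi⟩ _ hj y 1
  obtain ⟨f, hf⟩ := exists_unitsHom_of_apply_one (isChar_irr ω) (cch_one _ _ hj)
  have h2 : Function.Injective f := (injective_iff_map_eq_one f).2 fun y hy =>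
    Subtype.ext (h.faith _ (by rw [h1, hf]; simp [hy]))
  haveI := isCyclic_of_injective_ringHom ((Units.coeHom ℂ).comp f) (Units.val_injective.comp h2)
  rw [← IsCyclic.exponent_eq_card]
  refine Monoid.exponent_dvd_of_forall_pow_eq_one fun y => ?_
  have h3 := h.frob y
  rw [← coe_pow, h1, h1, hf] at h3
  have h4 := h2 (Units.ext (mul_right_cancel₀ (apply_one_ne_zero_of_isIrr hi) h3))
  rwa [← Nat.sub_add_cancel hp.out.one_le, pow_succ, mul_eq_right] at h4

theorem comm_or_irr (h : FC p χ 2) : (∀ a b : G, a * b = b * a) ∨ IsIrrCharacter G χ := by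
  by_cases h1 : ∀ ξ, mu χ ξ ≠ 0 → deg ξ ≤ 1
  · exact Or.inl (comm_of_deg h.char h.faith h1)
  push Not at h1
  obtain ⟨ξ, h2, h3⟩ := h1
  have := deg_le_of_mu h.char h.one h2
  rw [eq_irr_of_deg h.char h2 (by rw [h.one]; congr 1; omega)]
  exact Or.inr ξ.2

theorem cent_comm_two (h : FC p χ 2) (g : G) (hg : g ∉ center G) :
    ∀ a ∈ centralizer ({g} : Set G), ∀ b ∈ centralizer ({g} : Set G), a * b = b * a := by
  rcases (h.res (centralizer ({g} : Set G))).comm_or_irr with e | e
  · exact fun a ha b hb => congrArg Subtype.val (e ⟨a, ha⟩ ⟨b, hb⟩)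
  · exact absurd (h.mem_center_of_norm (norm_of_central ⟨_, e⟩
      (z := ⟨g, mem_centralizer_singleton_iff.2 rfl⟩)
      fun a => Subtype.ext (mem_centralizer_singleton_iff.1 a.2))) hg

theorem relIndex_le_two (h : FC p χ 2) {A : Subgroup G} (hA : ∀ a b : A, a * b = b * a)
    (hC : centralizer (A : Set G) ≤ A) : A.relIndex (normalizer (A : Set G)) ≤ 2 := by
  classical
  have h' := h.res A
  letI : MulAction (normalizer (A : Set G)) (IrrCharacter A) :=
    { smul := fun x l => irrComp (A.normalizerMonoidHom x⁻¹) l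
      one_smul := fun l => by
        change irrComp (A.normalizerMonoidHom 1⁻¹) l = l
        rw [inv_one, map_one]; rfl
      mul_smul := fun x y l => by
        change irrComp (A.normalizerMonoidHom (x * y)⁻¹) l = _
        rw [mul_inv_rev, map_mul]; rfl }
  have hs : ∀ (x : normalizer (A : Set G)), ∀ l ∈ supp fun a : A => χ a,
      x • l ∈ supp fun a : A => χ a := fun x l hl => by
    have := mu_irrComp (A.normalizerMonoidHom x⁻¹) h'.char l
    rw [show (fun a => χ (A.normalizerMonoidHom x⁻¹ a)) = fun a : A => χ a from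
      funext fun a => isClass_of_isChar h.char _ _] at this
    exact mem_supp.2 (this ▸ mem_supp.1 hl)
  have h2 := card_supp_le h'.char h'.one
  obtain ⟨l, hl⟩ := supp_nonempty h'.char (by rw [h'.one]; norm_num)
  have h3 : MulAction.stabilizer (normalizer (A : Set G)) l ≤ A.subgroupOf _ := fun x hx => by
    refine (A.subgroupOf _).inv_mem_iff.1 (hC fun a ha => ?_)
    have := h'.faith (A.normalizerMonoidHom x⁻¹ ⟨a, ha⟩ * ⟨a, ha⟩⁻¹)
      (apply_eq_of_forall_mu h'.char fun ν hν => by
        have e1 := apply_one_eq_one_of_comm ν.2 hA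
        have e2 : x • ν = ν := by
          by_contra e2
          have e3 : ν ≠ l := fun e => e2 (e ▸ hx)
          have := Finset.card_le_card (s := {l, ν, x • ν}) (t := supp fun a : A => χ a) (by
            simp only [Finset.insert_subset_iff, Finset.singleton_subset_iff]
            exact ⟨hl, mem_supp.2 hν, hs x ν (mem_supp.2 hν)⟩)
          rw [Finset.card_eq_three.2 ⟨_, _, _, e3.symm, fun e => e3 (smul_left_cancel x
            (e.symm.trans (MulAction.mem_stabilizer_iff.1 hx).symm)), Ne.symm e2, rfl⟩] at this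
          omega
        rw [map_mul_of_apply_one (isChar_irr ν) e1,
          show ν.1 (A.normalizerMonoidHom x⁻¹ ⟨a, ha⟩) = ν.1 ⟨a, ha⟩ from
            congrFun (congrArg Subtype.val e2) _, ← map_mul_of_apply_one (isChar_irr ν) e1,
          mul_inv_cancel])
    exact (mul_inv_eq_iff_eq_mul.1 (congrArg Subtype.val (mul_inv_eq_one.1 this))).symm
  refine (Nat.le_of_dvd (Nat.pos_of_ne_zero index_ne_zero_of_finite) (index_dvd_of_le h3)).trans ?_
  rw [MulAction.index_stabilizer]
  refine le_trans (Set.ncard_le_ncard (t := supp fun a : A => χ a) ?_) (by simpa using h2)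
  rintro _ ⟨x, rfl⟩
  exact hs x l hl

end FC

variable {p : ℕ} [hp : Fact p.Prime] {V : Type*} [AddCommGroup V] [Module (ZMod p) V] [Finite V]
  {ρ : Representation (ZMod p) G V}

theorem TS.card_stab_two (h : TS ρ) (hn : finrank (ZMod p) V = 2) {v : V} (hv : v ≠ 0) :
    Nat.card (stab ρ v) ∣ p - 1 := by
  classical
  have h1 := card_dvd_of_free (A := stab ρ v) (fun a w => ρ a w) (rep_one ρ)
    (fun a b => rep_mul ρ _ _) (· ∉ Submodule.span (ZMod p) {v}) (fun a w hw e => hw (by
      obtain ⟨c, hc⟩ := Submodule.mem_span_singleton.1 e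
      refine Submodule.mem_span_singleton.2 ⟨c, (ρ.apply_bijective a).1 ?_⟩
      rw [map_smul, show ρ a v = v from a.2, hc])) fun a w hw e => Subtype.ext (h.faith _ (by
      have h2 : Submodule.span (ZMod p) {v} < LinearMap.ker (ρ a - 1) := lt_of_le_of_ne
        ((Submodule.span_singleton_le_iff_mem _ _).2 (sub_eq_zero.2 a.2))
        fun e' => hw (e' ▸ sub_eq_zero.2 e)
      have h3 := Submodule.finrank_lt_finrank_of_lt h2
      rw [finrank_span_singleton hv] at h3
      have h4 := Submodule.eq_top_of_finrank_eq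
        (le_antisymm (Submodule.finrank_le (LinearMap.ker (ρ a - 1))) (by omega))
      exact fun u => sub_eq_zero.1 (h4.ge Submodule.mem_top)))
  haveI := Fintype.ofFinite V
  rw [Nat.card_eq_fintype_card (α := {x // x ∉ Submodule.span (ZMod p) {v}}),
    Fintype.card_subtype_compl,
    ← Nat.card_eq_fintype_card, ← Nat.card_eq_fintype_card, card_pow p V,
    card_pow p (Submodule.span (ZMod p) {v}), hn,
    finrank_span_singleton hv, sq, pow_one, ← Nat.mul_sub_one] at h1
  exact (Nat.Coprime.dvd_mul_left ((Nat.Prime.coprime_iff_not_dvd hp.out).2 fun e =>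
    h.cop (e.trans (card_subgroup_dvd_card _))).symm).1 h1

theorem TS.goal_two (h : TS ρ) (hn : finrank (ZMod p) V = 2) (h2 : p ≠ 2) {χ : G → ℂ}
    (hχ : FC p χ 2) {v : V} (hv : v ≠ 0) : Goal ρ v := by
  have hp2 := hp.out.two_le
  rcases hχ.comm_or_irr with e | hi
  · exact h.caseA ⊤ (fun a _ b _ => e a b) h.irred_top hv
  have hG := h.card_eq hv
  have hH := Nat.le_of_dvd (by omega) (h.card_stab_two hn hv)
  have hH0 : 0 < Nat.card (stab ρ v) := Nat.card_pos
  have hZ := Nat.le_of_dvd (by omega) (hχ.card_center_dvd hi)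
  have hq := card_pow p V
  obtain ⟨t, ht⟩ : ∃ t, p = t + 1 := ⟨p - 1, by omega⟩
  have hq1 : Nat.card V - 1 = t * (t + 2) := by
    rw [hq, hn, ht]
    exact Nat.sub_eq_of_eq_add (by ring)
  have ht' : p - 1 = t := by omega
  rw [hq1] at hG
  rw [ht'] at hH hZ
  by_cases h3 : ∀ g, g ∉ center G → 3 ≤ (centralizer ({g} : Set G)).index
  · refine goal_of_lt ?_
    have hD : 0 < Nat.card G := Nat.card_pos
    rw [show Nat.card V = (t + 1) ^ 2 by rw [hq, hn, ← ht]]
    by_cases hp3 : p = 3
    · have := card_conj_le_of (m := 3) (c := Nat.card G) fun g hg =>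
        (Nat.mul_le_mul_right _ (h3 g hg)).trans_eq (index_mul_card _)
      obtain rfl : t = 2 := by omega
      have : 3 * Nat.card (ConjClasses G) + Nat.card (center G) ≤
          3 * Nat.card (center G) + Nat.card G := Nat.le_of_mul_le_mul_right (by nlinarith) hD
      omega
    have k := fun g hg => klein hχ.cent_comm_two (fun g hg => hχ.relIndex_le_two
      (fun a b => Subtype.ext (hχ.cent_comm_two g hg a a.2 b b.2)) (centralizer_le
        (Set.singleton_subset_iff.2 (mem_centralizer_singleton_iff.2 rfl)))) h3 (g₀ := g) hg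
    have := card_conj_le_of (G := G) (m := 1) (c := t * Nat.card (center G)) fun g hg => by
      rw [one_mul]
      by_cases h5 : p = 5
      · obtain ⟨a, ha⟩ := card_dvd_of_le (center_le_centralizer {g})
        have e1 := k g hg
        have e2 : a ≠ 5 := fun e => h.cop (h5 ▸ (Dvd.intro_left _ (e ▸ ha.symm)).trans
          (card_subgroup_dvd_card _))
        rw [ha, mul_comm] at e1 ⊢
        have := Nat.le_of_mul_le_mul_right e1 Nat.card_pos
        exact Nat.mul_le_mul_right _ (by omega)
      · have : p ≠ 4 := fun e => absurd (e ▸ hp.out) (by norm_num)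
        exact (k g hg).trans (Nat.mul_le_mul_right _ (by omega))
    have : Nat.card (ConjClasses G) ≤ (t + 1) * Nat.card (center G) :=
      Nat.le_of_mul_le_mul_right (by nlinarith [Nat.zero_le (Nat.card (center G) *
        (t * Nat.card (center G)))]) hD
    nlinarith
  push Not at h3
  obtain ⟨g, hg, h4⟩ := h3
  have h5 : (centralizer ({g} : Set G)).index = 2 := by
    have := index_ne_zero_of_finite (H := centralizer ({g} : Set G))
    have : (centralizer ({g} : Set G)).index ≠ 1 := fun e => hg (mem_center_iff.2 fun a =>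
      mem_centralizer_singleton_iff.1 (index_eq_one.1 e ▸ mem_top a))
    omega
  haveI := normal_of_index_eq_two h5
  refine h.caseA _ (hχ.cent_comm_two g hg) ((h.semi _ (hχ.cent_comm_two g hg)).irred
    fun m h0 hm e => ?_) hv
  obtain rfl : m = 1 := by omega
  have := Nat.le_of_dvd (by rw [pow_one]; omega) e
  rw [pow_one, ht'] at this
  rw [← (centralizer ({g} : Set G)).index_mul_card, h5] at hG
  nlinarith

end Cfsg.Agent.Trans
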