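import Cfsg.Agent.Lib.Trans.Mult

/-!
# The variance bound for an abelian Sylow subgroup with constant centralizers
-/

set_option autoImplicit false
set_option linter.unusedSectionVars false
set_option linter.style.haveILetI false

namespace Cfsg.Agent.Trans

open Cfsg.Agent.Block Cfsg.Agent.Char Cfsg.Agent.Tr Subgroup
open scoped ComplexConjugate

variable {G : Type*} [Group G] [Finite G]

theorem sum_norm_sq [Fintype G] {θ : G → ℂ} (hθ : IsCharacter G θ) :
    ∑ g, ‖θ g‖ ^ 2 = Nat.card G * ((∑ ψ : IrrCharacter G, mu θ ψ * mu θ ψ : ℕ) : ℝ) := by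
  have h := (inner_self_eq θ).symm.trans (inner_eq_sum_mu hθ hθ)
  have h0 : (Nat.card G : ℝ) ≠ 0 := Nat.cast_ne_zero.2 Nat.card_pos.ne'
  rw [← Complex.ofReal_natCast, Complex.ofReal_inj, inv_mul_eq_iff_eq_mul₀ h0] at h
  exact h

/-- An abelian Sylow subgroup whose nonidentity elements have the same centralizer. -/
structure TIS (r : ℕ) (P : Subgroup G) : Prop where
  syl : SylowIn r P ⊤
  ab : P ≤ centralizer (P : Set G)
  cen : ∀ x ∈ P, x ≠ 1 → centralizer ({x} : Set G) ≤ centralizer (P : Set G)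

/-- The inertial index. -/
noncomputable def ee (P : Subgroup G) : ℕ :=
  (centralizer (P : Set G)).relIndex (normalizer (P : Set G))

theorem ee_mul (P : Subgroup G) :
    Nat.card (centralizer (P : Set G)) * ee P = Nat.card (normalizer (P : Set G)) :=
  card_mul_relIndex (centralizer_le_normalizer _)

theorem ee_pos (P : Subgroup G) : 0 < ee P :=
  Nat.pos_of_ne_zero fun h => by
    have := ee_mul P
    rw [h, mul_zero] at this
    exact Nat.card_pos.ne this

theorem ee_dvd_card (P : Subgroup G) : ee P ∣ Nat.card G :=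
  (Dvd.intro_left _ (ee_mul P)).trans (card_subgroup_dvd_card _)

theorem card_range_eq_ee (P : Subgroup G) : Nat.card P.normalizerMonoidHom.range = ee P := by
  rw [← index_ker, normalizerMonoidHom_ker, ee, relIndex]

namespace TIS
variable {r : ℕ} [hr : Fact r.Prime] {P : Subgroup G} (h : TIS r P)
include h

theorem comm (a b : P) : a * b = b * a := Subtype.ext (h.ab b.2 a a.2)

theorem mem_of_cent {x : G} (hx : x ∈ centralizer (P : Set G)) (ho : ∃ k, orderOf x = r ^ k) :
    x ∈ P := mem_of_mem_normalizer h.syl (centralizer_le_normalizer _ hx) ho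

theorem mem_normalizer {c g : G} (hc : c ∈ centralizer (P : Set G)) (ho : r ∣ orderOf c)
    (hg : g * c * g⁻¹ ∈ centralizer (P : Set G)) : g ∈ normalizer (P : Set G) := by
  obtain ⟨x, hx⟩ := exists_isPPart (p := r) c
  have hx1 : x ≠ 1 := fun e => (IsPPart.eq_one_iff hx).1 e ho
  have hx' := IsPPart.conj hx g
  have h1 : x ∈ P := h.mem_of_cent (IsPPart.mem hx hc) (IsPPart.orderOf_eq hx)
  have h2 : g * x * g⁻¹ ∈ P := h.mem_of_cent (IsPPart.mem hx' hg) (IsPPart.orderOf_eq hx')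
  refine mem_normalizer_of_forall fun a ha => h.mem_of_cent (h.cen _ h2 (by simpa using hx1) ?_) ?_
  · rw [mem_centralizer_singleton_iff]
    have := h.ab h1 a ha
    calc g * a * g⁻¹ * (g * x * g⁻¹) = g * (a * x) * g⁻¹ := by group
      _ = _ := by rw [this]; group
  · rw [Tr.orderOf_conj]
    exact exists_orderOf_of_mem h.syl.isPGroup ha

theorem sing_lt [Fintype (centralizer (P : Set G))] (ψ : IrrCharacter G) :
    ∑ c : centralizer (P : Set G), (if r ∣ orderOf c then ‖ψ.1 c‖ ^ 2 else 0) <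
      Nat.card (normalizer (P : Set G)) := by
  classical
  haveI := Fintype.ofFinite G
  let S : G → Prop := fun c => c ∈ centralizer (P : Set G) ∧ r ∣ orderOf c
  have h1 : ∑ c : centralizer (P : Set G), (if r ∣ orderOf c then ‖ψ.1 c‖ ^ 2 else 0) =
      ∑ c : G, if S c then ‖ψ.1 c‖ ^ 2 else 0 := by
    simp only [← orderOf_coe]
    rw [← Finset.sum_subtype (p := (· ∈ centralizer (P : Set G)))
      (Finset.univ.filter (· ∈ centralizer (P : Set G))) (by simp)
      (fun c : G => if r ∣ orderOf c then ‖ψ.1 c‖ ^ 2 else 0), Finset.sum_filter]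
    simp only [S, ite_and]
  have h2 : ∀ g : G, (∑ c : G, if S c then ‖ψ.1 c‖ ^ 2 else 0) =
      ∑ y : G, if S (g * y * g⁻¹) then ‖ψ.1 y‖ ^ 2 else 0 := fun g => by
    rw [← Equiv.sum_comp (MulAut.conj g).toEquiv]
    refine Finset.sum_congr rfl fun y _ => ?_
    change (if S (g * y * g⁻¹) then ‖ψ.1 (g * y * g⁻¹)‖ ^ 2 else 0) = _
    rw [isClass_irr ψ]
  have h3 : ∀ y : G, (Finset.univ.filter fun g => S (g * y * g⁻¹)).card ≤
      Nat.card (normalizer (P : Set G)) := fun y => by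
    rcases (Finset.univ.filter fun g => S (g * y * g⁻¹)).eq_empty_or_nonempty with e | ⟨g₀, hg₀⟩
    · rw [e]; exact Nat.zero_le _
    rw [Nat.card_eq_fintype_card, Fintype.card_subtype]
    refine Finset.card_le_card_of_injOn (fun g => g * g₀⁻¹) (fun g hg => ?_)
      fun a _ b _ e => mul_right_cancel e
    simp only [Finset.coe_filter, Finset.mem_univ, true_and, Set.mem_ofPred_eq] at hg ⊢
    have h0 := (Finset.mem_filter.1 hg₀).2
    refine h.mem_normalizer h0.1 h0.2 ?_
    convert hg.1 using 1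
    group
  have h4 : ∑ g, ‖ψ.1 g‖ ^ 2 = Nat.card G := by
    rw [sum_norm_sq (isChar_irr ψ), Finset.sum_eq_single ψ (fun b _ hb => by
      rw [mu_irr, if_neg hb.symm, mul_zero]) (by simp), mu_self]
    simp
  have hG : (0 : ℝ) < Nat.card G := Nat.cast_pos.2 Nat.card_pos
  have hN : (0 : ℝ) < Nat.card (normalizer (P : Set G)) := Nat.cast_pos.2 Nat.card_pos
  rw [h1]
  refine lt_of_mul_lt_mul_left ?_ hG.le
  calc _ = ∑ g : G, ∑ y : G, if S (g * y * g⁻¹) then ‖ψ.1 y‖ ^ 2 else 0 := by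
        rw [← Finset.sum_congr rfl fun g _ => h2 g, Finset.sum_const, Finset.card_univ,
          nsmul_eq_mul, Nat.card_eq_fintype_card]
    _ = ∑ y : G, (Finset.univ.filter fun g => S (g * y * g⁻¹)).card * ‖ψ.1 y‖ ^ 2 := by
        rw [Finset.sum_comm]
        refine Finset.sum_congr rfl fun y _ => ?_
        rw [← Finset.sum_filter, Finset.sum_const, nsmul_eq_mul]
    _ < ∑ y : G, Nat.card (normalizer (P : Set G)) * ‖ψ.1 y‖ ^ 2 := by
        refine Finset.sum_lt_sum (fun y _ => ?_) ⟨1, Finset.mem_univ _, ?_⟩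
        · exact mul_le_mul_of_nonneg_right (Nat.cast_le.2 (h3 y)) (sq_nonneg _)
        · rw [Finset.filter_false_of_mem fun g _ hg => not_dvd_orderOf_one (p := r) (G := G)
            (by simpa using hg.2)]
          have := irr_apply_one_ne_zero ψ
          simp only [Finset.card_empty, Nat.cast_zero, zero_mul]
          positivity
    _ = _ := by rw [← Finset.mul_sum, h4, mul_comm]

theorem variance (ψ : IrrCharacter G) :
    (supp fun x : P => ψ.1 x).card * Nat.card P <
      ee P * Nat.card P + (supp fun x : P => ψ.1 x).card ^ 2 := by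
  classical
  set C := centralizer (P : Set G) with hC
  haveI := Fintype.ofFinite C
  haveI := Fintype.ofFinite P
  set Ω := supp fun x : P => ψ.1 x with hΩ
  let j : P →* C := inclusion h.ab
  have hj : ∀ x g, g * j x = j x * g := fun x g => Subtype.ext (g.2 x x.2).symm
  let θ : C → ℂ := fun c => ψ.1 c
  have hθ : IsCharacter C θ := isChar_restrict (isChar_irr ψ) C
  let a : IrrCharacter P → IrrCharacter C → ℕ := fun l φ => if cch φ j hj = l then mu θ φ else 0
  let η : IrrCharacter P → C → ℂ := fun l => ∑ φ, (a l φ : ℂ) • φ.1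
  have hη : ∀ l c, η l c = ∑ φ, (a l φ : ℂ) * φ.1 c := fun l c => by simp [η]
  let n : IrrCharacter P → ℕ := fun l => ∑ φ, a l φ * a l φ
  have hmem : ∀ φ, mu θ φ ≠ 0 → cch φ j hj ∈ Ω := fun φ hφ =>
    mem_supp.2 ((deg_pos φ).trans_le (deg_le_mu_cch φ j hj hθ hφ)).ne'
  have h1 : ∀ l, ∑ c, ‖η l c‖ ^ 2 = Nat.card C * (n l : ℝ) := fun l => by
    rw [sum_norm_sq (isChar_sum_nat_smul_irr (a l))]
    simp only [n, mu_eq_of_sum (a l) (hη l), η]
  have h2 : ∑ c, ‖θ c‖ ^ 2 = Nat.card C * ((∑ l ∈ Ω, n l : ℕ) : ℝ) := by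
    rw [sum_norm_sq hθ, Finset.sum_comm]
    congr 2
    refine Finset.sum_congr rfl fun φ _ => ?_
    by_cases hφ : mu θ φ = 0
    · simp [a, hφ]
    · rw [Finset.sum_eq_single_of_mem _ (hmem φ hφ) fun l _ hl => by simp [a, hl.symm]]
      simp [a]
  have h3 : ∀ c, θ c = ∑ l ∈ Ω, η l c := fun c => by
    simp only [hη]
    rw [eq_sum_mu hθ, Finset.sum_comm]
    refine Finset.sum_congr rfl fun φ _ => ?_
    by_cases hφ : mu θ φ = 0
    · simp [a, hφ]
    · rw [Finset.sum_eq_single_of_mem _ (hmem φ hφ) fun l _ hl => by simp [a, hl.symm]]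
      simp [a]
  have h4 : Ω.card ≤ ∑ l ∈ Ω, n l := by
    rw [Finset.card_eq_sum_ones]
    refine Finset.sum_le_sum fun l hl => ?_
    obtain ⟨φ, e1, e2⟩ := exists_mu_comp hθ j (mem_supp.1 hl)
    rw [mu_cch φ j hj] at e2
    refine le_trans ?_ (Finset.single_le_sum (f := fun φ => a l φ * a l φ)
      (fun _ _ => Nat.zero_le _) (Finset.mem_univ φ))
    have : a l φ = mu θ φ := if_pos (ite_ne_right_iff.1 e2).1.symm
    rw [this]
    exact Nat.mul_pos (Nat.pos_of_ne_zero e1) (Nat.pos_of_ne_zero e1)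
  let R : Finset C := Finset.univ.filter fun c => ¬ r ∣ orderOf c
  have h5 : ∀ l, Nat.card P * ∑ b ∈ R, ‖η l b‖ ^ 2 ≤ Nat.card C * (n l : ℝ) := fun l => by
    have e1 : ∀ x b, ‖η l (j x * b)‖ = ‖η l b‖ := fun x b => by
      have : η l (j x * b) = l.1 x * η l b := by
        rw [hη, hη, Finset.mul_sum]
        refine Finset.sum_congr rfl fun φ _ => ?_
        rw [cch_mul φ j hj]
        by_cases e : cch φ j hj = l
        · rw [e]; ring
        · simp [a, e]
      rw [this, norm_mul, norm_irr_of_one (apply_one_eq_one_of_comm l.2 h.comm), one_mul]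
    rw [← h1]
    refine le_trans (le_of_eq ?_) (Finset.sum_le_univ_sum_of_nonneg
      (s := (Finset.univ ×ˢ R).image fun t : P × C => j t.1 * t.2) fun _ => sq_nonneg _)
    rw [Finset.sum_image, Finset.sum_product]
    · simp only [e1]
      rw [Finset.sum_const, Finset.card_univ, nsmul_eq_mul, Nat.card_eq_fintype_card]
    · rintro ⟨x, b⟩ hb ⟨y, c⟩ hc e
      have p1 : ∀ (x : P) (b : C), b ∈ R → IsPPart r (j x * b) (j x) := fun x b hb =>
        isPPart_mul (hj x b).symm (by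
          rw [orderOf_injective j (inclusion_injective _), ← orderOf_coe]
          exact exists_orderOf_of_mem h.syl.isPGroup x.2) (Finset.mem_filter.1 hb).2
      have e' : j x * b = j y * c := e
      have e2 := IsPPart.unique (p1 x b (Finset.mem_product.1 hb).2)
        (e' ▸ p1 y c (Finset.mem_product.1 hc).2)
      rw [e2] at e'
      rw [inclusion_injective _ e2, mul_left_cancel e']
  have h6 : ∑ b ∈ R, ‖θ b‖ ^ 2 ≤ Ω.card * ∑ l ∈ Ω, ∑ b ∈ R, ‖η l b‖ ^ 2 := by
    rw [Finset.sum_comm, Finset.mul_sum]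
    refine Finset.sum_le_sum fun b _ => ?_
    rw [h3]
    exact (pow_le_pow_left₀ (norm_nonneg _) (norm_sum_le _ _) 2).trans sq_sum_le_card_mul_sum_sq
  have h7 := h.sing_lt ψ
  have h8 : ∑ c : C, (if r ∣ orderOf c then ‖ψ.1 c‖ ^ 2 else 0) + ∑ b ∈ R, ‖θ b‖ ^ 2 =
      ∑ c, ‖θ c‖ ^ 2 := by
    rw [Finset.sum_filter, ← Finset.sum_add_distrib]
    refine Finset.sum_congr rfl fun c _ => ?_
    split_ifs <;> simp [θ]
  have h9 : Nat.card P * ∑ l ∈ Ω, ∑ b ∈ R, ‖η l b‖ ^ 2 ≤
      Nat.card C * ((∑ l ∈ Ω, n l : ℕ) : ℝ) := by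
    rw [Finset.mul_sum, Nat.cast_sum, Finset.mul_sum]
    exact Finset.sum_le_sum fun l _ => h5 l
  have h10 : Ω.card ≤ Nat.card P := by
    have := sum_deg_sq (G := P)
    simp only [deg_eq_one_iff.2 (apply_one_eq_one_of_comm (Subtype.prop _) h.comm), one_pow,
      Finset.sum_const, smul_eq_mul, mul_one] at this
    exact this ▸ Finset.card_le_univ Ω
  rw [← ee_mul, Nat.cast_mul] at h7
  change _ < (Nat.card C : ℝ) * _ at h7
  have hc : (0 : ℝ) < Nat.card C := Nat.cast_pos.2 Nat.card_pos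
  have hp : (0 : ℝ) < Nat.card P := Nat.cast_pos.2 Nat.card_pos
  have h4' : (Ω.card : ℝ) ≤ (∑ l ∈ Ω, n l : ℕ) := Nat.cast_le.2 h4
  have h10' : (Ω.card : ℝ) ≤ Nat.card P := Nat.cast_le.2 h10
  have hσ : (0 : ℝ) ≤ Ω.card := Nat.cast_nonneg _
  rw [← Nat.cast_lt (α := ℝ)]
  push_cast
  generalize ((∑ l ∈ Ω, n l : ℕ) : ℝ) = D at *
  generalize (Ω.card : ℝ) = σ at *
  generalize (Nat.card P : ℝ) = M at *
  generalize (Nat.card C : ℝ) = c at *
  generalize (ee P : ℝ) = e at *
  have k1 : M * ∑ b ∈ R, ‖θ b‖ ^ 2 ≤ σ * (c * D) := by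
    calc _ ≤ M * (σ * ∑ l ∈ Ω, ∑ b ∈ R, ‖η l b‖ ^ 2) := mul_le_mul_of_nonneg_left h6 hp.le
      _ = σ * (M * ∑ l ∈ Ω, ∑ b ∈ R, ‖η l b‖ ^ 2) := by ring
      _ ≤ _ := mul_le_mul_of_nonneg_left h9 hσ
  have k2 : c * (D * (M - σ)) < c * (e * M) := by
    have := mul_lt_mul_of_pos_left h7 hp
    nlinarith
  have k3 := lt_of_mul_lt_mul_left k2 hc.le
  nlinarith [mul_le_mul_of_nonneg_right h4' (sub_nonneg.2 h10')]

theorem ee_dvd {θ : G → ℂ} (hθ : IsCharacter G θ) [DecidableEq (IrrCharacter P)] :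
    ee P ∣ ((supp fun x : P => θ x).erase (irrOne P)).card := by
  rw [← card_range_eq_ee]
  refine card_dvd_card_erase h.comm _ ?_ (isChar_restrict hθ P) ?_
  · rintro _ ⟨g, rfl⟩ x e hx
    have : g ∈ P.normalizerMonoidHom.ker := by
      rw [normalizerMonoidHom_ker]
      exact h.cen x x.2 (fun e => hx (Subtype.ext e)) (mem_centralizer_singleton_iff.2
        (mul_inv_eq_iff_eq_mul.1 (congrArg Subtype.val e)))
    exact this
  · rintro _ ⟨g, rfl⟩ x
    exact isClass_of_isChar hθ _ _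

end TIS

end Cfsg.Agent.Trans
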